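import Mathlib
import Cfsg.Prelude.Def_GeometricClasses
import Cfsg.Agent.Lib.Helper71.Asch0
import Cfsg.Agent.Lib.Helper71.Asch5
import Cfsg.Agent.Lib.Helper82.ASSA
import Cfsg.Agent.Lib.Helper28.ASSB
import Cfsg.Agent.Lib.Helper66.ASSC
import Cfsg.Agent.Lib.Helper65.ASSE
import Cfsg.Agent.Lib.Helper12.ASSF
import Cfsg.Agent.Lib.Helper82.ASSG
import Cfsg.Agent.Lib.Helper65.ASSN
import Cfsg.Agent.Lib.Helper63.SPPSY
import Cfsg.Agent.Lib.Helper75.SPPEVEN

/-! Project SPG (S5662), sub-project XT (architect helper1), piece XT-A (helper56): for a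
symplectic-type minimal non-scalar normal subgroup `L` of a group of isometries of a symplectic
form: `r = 2`, `n = 2 ^ k`, the scalars of `L` are `±1`, the order of `L` is `2 ^ (1 + 2 k)`, the
centre has order `2`, and `L` is of symplectic type. -/

set_option autoImplicit false

namespace Cfsg.Agent.Lib.Helper56.SPGXTA

open Matrix Cfsg.Geo Cfsg.Agent.Lib.Helper71.Asch

variable {n : ℕ} {F : Type*} [Field F] [Fintype F]

/-- PIECE XT-A -/
theorem XTA (hn : 4 ≤ n) (f : (Fin n → F) → (Fin n → F) → F) (hf : IsSymplecticForm f)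
    (H L : Subgroup (GL (Fin n) F)) (hfix : FixesForm (matrixSet H) f) (h : SymT H L) :
    (2 : F) ≠ 0 ∧ (n : F) ≠ 0 ∧
    (∀ x ∈ L, x ∈ scalars (Fin n) F → x.1 = 1 ∨ x.1 = -1) ∧
    ∃ k : ℕ, n = 2 ^ k ∧ IsSymplecticTypeGroup 2 L ∧ Nat.card L = 2 ^ (1 + 2 * k) ∧
      Nat.card (Subgroup.center L) = 2 := by
  classical
  obtain ⟨r, hr, hx⟩ := Cfsg.Agent.Lib.Helper82.ASSA.SA H L h
  have hr0 := Cfsg.Agent.Lib.Helper28.ASSB.SB (by omega) H L h r hr hx
  have hp := Cfsg.Agent.Lib.Helper66.ASSC.SC H L h r hr hx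
  have hexp := Cfsg.Agent.Lib.Helper65.ASSE.SE (by omega) H L h r hr hx hp
  have hn0 := Cfsg.Agent.Lib.Helper82.ASSG.SH (by omega) L h.abs r hr hr0 hp
  -- `n` is even
  have hW : IsNondegenerateOn f (⊤ : Submodule F (Fin n → F)) := by
    intro w _ hw
    obtain ⟨⟨x, hx1⟩, ⟨y, hy1⟩⟩ := hf.nondegenerate w hw
    exact ⟨⟨x, Submodule.mem_top, hx1⟩, ⟨y, Submodule.mem_top, hy1⟩⟩
  have heven : Even n := by
    have h1 := Cfsg.Agent.Lib.Helper75.SPPEVEN.EVEN f hf.bilinear hf.alternating ⊤ hW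
    rwa [finrank_top, Module.finrank_fin_fun] at h1
  have : Fact r.Prime := ⟨hr⟩
  have hPG : IsPGroup r ↥L := Cfsg.Agent.Lib.Helper65.ASSN.isPGroup_L L r hr hexp
  obtain ⟨a, ha⟩ := IsPGroup.iff_card.mp hPG
  have hidx := Cfsg.Agent.Lib.Helper63.SPPSY.sy_index (by omega) H L h
  have hcard := Subgroup.card_eq_card_quotient_mul_card_subgroup
    ((scalars (Fin n) F).subgroupOf L)
  rw [hidx] at hcard
  have hdvd : n * n ∣ r ^ a := by
    rw [← ha, hcard]
    exact Dvd.intro _ rfl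
  have h2r : 2 ∣ r ^ a := (heven.two_dvd).trans ((Dvd.intro _ rfl).trans hdvd)
  have hr2 : 2 = r :=
    (Nat.prime_dvd_prime_iff_eq Nat.prime_two hr).1 (Nat.prime_two.dvd_of_dvd_pow h2r)
  subst hr2
  have h2F : (2 : F) ≠ 0 := by exact_mod_cast hr0
  obtain ⟨k, -, hk⟩ := (Nat.dvd_prime_pow Nat.prime_two).1 ((Dvd.intro _ rfl).trans hdvd)
  -- the scalars of `L` are `±1`
  have hZ : ∀ x ∈ L, x ∈ scalars (Fin n) F → x.1 = 1 ∨ x.1 = -1 := by
    intro x hxL hxs
    obtain ⟨c, hc⟩ := (mem_scalars_iff x).1 hxs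
    have hv : (fun _ : Fin n => (1 : F)) ≠ 0 := by
      intro h0
      have h1 := congrFun h0 ⟨0, by omega⟩
      simp at h1
    obtain ⟨⟨u, hu⟩, -⟩ := hf.nondegenerate _ hv
    have h1 := hfix x.1 ⟨x, h.min.le hxL, rfl⟩ u (fun _ => 1)
    rw [hc, Matrix.smul_mulVec, Matrix.one_mulVec, Matrix.smul_mulVec, Matrix.one_mulVec,
      hf.bilinear.smul_left, hf.bilinear.smul_right] at h1
    have h3 : (c : F) * c = 1 := by
      have h4 : ((c : F) * c - 1) * f u (fun _ => 1) = 0 := by linear_combination h1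
      rcases mul_eq_zero.1 h4 with h5 | h5
      · linear_combination h5
      · exact absurd h5 hu
    rcases mul_self_eq_one_iff.1 h3 with h5 | h5
    · left; rw [hc, h5, one_smul]
    · right; rw [hc, h5, neg_smul, one_smul]
  -- the scalar part has order 2
  have hZle : Nat.card ↥(L ⊓ scalars (Fin n) F) ≤ 2 := by
    have hsub : ((L ⊓ scalars (Fin n) F : Subgroup (GL (Fin n) F)) : Set (GL (Fin n) F)) ⊆
        {1, -1} := by
      intro x hxm
      rcases hZ x hxm.1 hxm.2 with h1 | h1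
      · left; exact Units.ext h1
      · right
        apply Units.ext
        rw [h1]
        simp
    calc Nat.card ↥(L ⊓ scalars (Fin n) F)
        = Set.ncard ((L ⊓ scalars (Fin n) F : Subgroup (GL (Fin n) F)) :
            Set (GL (Fin n) F)) := Nat.card_coe_set_eq _
      _ ≤ Set.ncard ({1, -1} : Set (GL (Fin n) F)) :=
          Set.ncard_le_ncard hsub (Set.toFinite _)
      _ ≤ 2 := (Set.ncard_insert_le _ _).trans (by rw [Set.ncard_singleton])
  have hZcard : Nat.card ↥(L ⊓ scalars (Fin n) F) = 2 := by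
    rcases Cfsg.Agent.Lib.Helper12.ASSF.SF (by omega) H L h 2 Nat.prime_two hexp with
      ⟨-, h1⟩ | ⟨-, h1 | h1⟩
    · exact h1
    · exact h1
    · omega
  have hZ' : Nat.card ↥((scalars (Fin n) F).subgroupOf L) =
      Nat.card ↥(L ⊓ scalars (Fin n) F) := by
    have e := (Subgroup.subgroupOfEquivOfLe (inf_le_left : L ⊓ scalars (Fin n) F ≤ L)).toEquiv
    rw [← Nat.card_congr e, Subgroup.inf_subgroupOf_left]
  have hcardL : Nat.card ↥L = 2 ^ (1 + 2 * k) := by
    rw [hcard, hZ', hZcard, hk]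
    ring
  -- the exponent
  have hexpo : Monoid.exponent ↥L = 2 * Nat.gcd 2 2 := by
    have hd : Monoid.exponent ↥L ∣ 2 * Nat.gcd 2 2 := by
      apply Monoid.exponent_dvd_of_forall_pow_eq_one
      intro x
      apply Subtype.ext
      exact hexp x.1 x.2
    have h4 : 2 * Nat.gcd 2 2 = 2 ^ 2 := by norm_num
    rw [h4] at hd ⊢
    obtain ⟨m, hm, hme⟩ := (Nat.dvd_prime_pow Nat.prime_two).1 hd
    have hm2 : m = 2 := by
      by_contra hne
      have hm1 : m ≤ 1 := by omega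
      have hd2 : Monoid.exponent ↥L ∣ 2 := by
        rw [hme]
        calc 2 ^ m ∣ 2 ^ 1 := pow_dvd_pow 2 hm1
          _ = 2 := pow_one 2
      have hsq : ∀ g : ↥L, g ^ 2 = 1 := Monoid.exponent_dvd_iff_forall_pow_eq_one.1 hd2
      have hinv : ∀ g : ↥L, g⁻¹ = g := fun g =>
        inv_eq_of_mul_eq_one_left (by rw [← pow_two]; exact hsq g)
      obtain ⟨x, hxL, y, hyL, hne⟩ := Cfsg.Agent.Lib.Helper65.ASF.not_abelian h
      apply hne
      have h5 : (⟨x, hxL⟩ : ↥L) * ⟨y, hyL⟩ = ⟨y, hyL⟩ * ⟨x, hxL⟩ := by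
        rw [← hinv (⟨x, hxL⟩ * ⟨y, hyL⟩), _root_.mul_inv_rev, hinv, hinv]
      exact congrArg Subtype.val h5
    rw [hme, hm2]
  refine ⟨h2F, hn0, hZ, k, hk, ?_, hcardL, ?_⟩
  · exact
      { prime := Nat.prime_two
        pGroup := hPG
        cyclic_of_characteristic := fun A hA hAc =>
          Cfsg.Agent.Lib.Helper65.ASSN.cyclic_of_char H L h A hA hAc
        exponent_eq := hexpo }
  · rw [Cfsg.Agent.Lib.Helper65.ASSN.card_center H L h]
    exact hZcard

end Cfsg.Agent.Lib.Helper56.SPGXTA
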