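import Mathlib
import Cfsg.Prelude.Def_GeometricClasses
import Cfsg.Prelude.Def_LieClassical

/-!
# Project OMP (S5814 / S5859, helper71): piece T2

Transport of the orthogonal-frame clause back along `glReindex e`, `e : κ ≃ Fin n`.
-/

set_option autoImplicit false

namespace Cfsg.Agent.Lib.Helper56.OMPT2

open Matrix Cfsg.Geo

variable {n : ℕ} {F : Type*} [Field F] [Fintype F]

variable {κ : Type} [Fintype κ] [DecidableEq κ]

/-- transport of vectors: `v ↦ v ∘ e.symm` -/
def tv (e : κ ≃ Fin n) : (κ → F) ≃ₗ[F] (Fin n → F) := LinearEquiv.funCongrLeft F F e.symm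

/-- the transported quadratic form on `Fin n → F` -/
def tQ (e : κ ≃ Fin n) (Q : (κ → F) → F) : (Fin n → F) → F := fun v => Q (v ∘ e)

/-- the transported subspace -/
def tW (e : κ ≃ Fin n) (W' : Submodule F (Fin n → F)) : Submodule F (κ → F) :=
  W'.comap (tv e).toLinearMap

omit [Fintype F] [Fintype κ] [DecidableEq κ] in
theorem T2_tv_apply (e : κ ≃ Fin n) (x : κ → F) : tv e x = x ∘ e.symm := rfl

omit [Fintype F] [Fintype κ] [DecidableEq κ] in
theorem T2_tQ_tv (e : κ ≃ Fin n) (Q : (κ → F) → F) (x : κ → F) : tQ e Q (tv e x) = Q x := by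
  unfold tQ
  rw [T2_tv_apply]
  congr 1
  funext a
  simp

omit [Fintype F] [Fintype κ] [DecidableEq κ] in
theorem T2_polar (e : κ ≃ Fin n) (Q : (κ → F) → F) (x y : κ → F) :
    QuadraticMap.polar (tQ e Q) (tv e x) (tv e y) = QuadraticMap.polar Q x y := by
  unfold QuadraticMap.polar
  rw [← map_add, T2_tQ_tv, T2_tQ_tv, T2_tQ_tv]

omit [Fintype F] in
theorem T2_mulVec (e : κ ≃ Fin n) (g : GL κ F) (x : κ → F) :
    tv e (g.1 *ᵥ x) = (glReindex e g).1 *ᵥ (tv e x) := by
  have h1 : (glReindex e g).1 = g.1.submatrix e.symm e.symm := rfl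
  rw [h1, T2_tv_apply, T2_tv_apply, Matrix.submatrix_mulVec_equiv]
  congr 2
  funext a
  simp

omit [Fintype F] [Fintype κ] [DecidableEq κ] in
theorem T2_mem_tW (e : κ ≃ Fin n) (W' : Submodule F (Fin n → F)) (x : κ → F) :
    x ∈ tW e W' ↔ tv e x ∈ W' := Iff.rfl

omit [Fintype F] [Fintype κ] [DecidableEq κ] in
theorem T2_tW_eq (e : κ ≃ Fin n) (W' : Submodule F (Fin n → F)) :
    tW e W' = (Submodule.orderIsoMapComap (tv (F := F) e)).symm W' := rfl

/-- T2 -/
theorem T2 (e : κ ≃ Fin n) (Q : (κ → F) → F) (H : Subgroup (GL κ F)) {t : ℕ}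
    (D' : Fin t → Submodule F (Fin n → F)) :
    (H.map (glReindex e).toMonoidHom ≤ decompositionStabilizer D' →
      H ≤ decompositionStabilizer (fun i => tW e (D' i))) ∧
    (IsOrthogonalMDecomposition (tQ e Q) 1 D' →
      IsOrthogonalMDecomposition Q 1 (fun i => tW e (D' i))) := by
  refine ⟨?_, ?_⟩
  · intro hle g hg
    have hmem : (glReindex e) g ∈ decompositionStabilizer D' :=
      hle (Subgroup.mem_map_of_mem _ hg)
    obtain ⟨σ, hσ⟩ := hmem
    refine ⟨σ, fun i => ?_⟩
    ext y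
    show y ∈ (tW e (D' i)).map (Matrix.toLin' g.1) ↔ y ∈ tW e (D' (σ i))
    rw [T2_mem_tW, ← hσ i, Submodule.mem_map, Submodule.mem_map]
    constructor
    · rintro ⟨x, hx, rfl⟩
      refine ⟨tv e x, hx, ?_⟩
      rw [Matrix.toLin'_apply, Matrix.toLin'_apply, T2_mulVec]
    · rintro ⟨x', hx', hxy⟩
      refine ⟨(tv e).symm x', ?_, ?_⟩
      · rw [T2_mem_tW, LinearEquiv.apply_symm_apply]
        exact hx'
      · apply (tv (F := F) e).injective
        rw [Matrix.toLin'_apply, T2_mulVec, LinearEquiv.apply_symm_apply, ← hxy,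
          Matrix.toLin'_apply]
  · intro hOD
    have hdec := hOD.decomp.decomp
    refine ⟨⟨⟨hdec.two_le, hdec.pos, ?_, ?_, ?_⟩, ?_, ?_⟩, ?_⟩
    · intro i
      rw [← hdec.finrank_eq i]
      exact LinearEquiv.finrank_eq ((tv (F := F) e).ofSubmodule' (D' i))
    · have h1 := hdec.indep.map_orderIso (Submodule.orderIsoMapComap (tv (F := F) e)).symm
      exact h1
    · have h1 : (⨆ i, tW e (D' i)) =
          (Submodule.orderIsoMapComap (tv (F := F) e)).symm (⨆ i, D' i) := by
        rw [OrderIso.map_iSup]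
        rfl
      show (⨆ i, tW e (D' i)) = ⊤
      rw [h1, hdec.iSup_eq_top, OrderIso.map_top]
    · intro i w hw hw0
      have hw0' : tv e w ≠ 0 := by
        intro h
        apply hw0
        apply (tv (F := F) e).injective
        rw [h, map_zero]
      obtain ⟨⟨x', hx', hne⟩, ⟨y', hy', hne'⟩⟩ := hOD.decomp.nondegenerate i (tv e w) hw hw0'
      refine ⟨⟨(tv e).symm x', ?_, ?_⟩, ⟨(tv e).symm y', ?_, ?_⟩⟩
      · rw [T2_mem_tW, LinearEquiv.apply_symm_apply]
        exact hx'
      · rw [← T2_polar e, LinearEquiv.apply_symm_apply]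
        exact hne
      · rw [T2_mem_tW, LinearEquiv.apply_symm_apply]
        exact hy'
      · rw [← T2_polar e, LinearEquiv.apply_symm_apply]
        exact hne'
    · intro i j hij u hu v hv
      rw [← T2_polar e]
      exact hOD.decomp.orthogonal i j hij (tv e u) hu (tv e v) hv
    · intro i j
      obtain ⟨ε', hε'⟩ := hOD.isometric i j
      refine ⟨((tv (F := F) e).ofSubmodule' (D' i)).trans
        (ε'.trans ((tv (F := F) e).ofSubmodule' (D' j)).symm), fun w => ?_⟩
      set w' : D' i := (tv (F := F) e).ofSubmodule' (D' i) w with hw'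
      have h1 : (tv e) ((((tv (F := F) e).ofSubmodule' (D' j)).symm (ε' w') :
          tW e (D' j)) : κ → F) = ((ε' w' : D' j) : Fin n → F) := by
        have h2 := LinearEquiv.ofSubmodule'_apply (tv (F := F) e) (D' j)
          (((tv (F := F) e).ofSubmodule' (D' j)).symm (ε' w'))
        rw [LinearEquiv.apply_symm_apply] at h2
        exact h2.symm
      show Q ((((tv (F := F) e).ofSubmodule' (D' j)).symm (ε' w') : tW e (D' j)) : κ → F) =
        Q (w : κ → F)
      rw [← T2_tQ_tv e Q, h1, hε' w', ← T2_tQ_tv e Q (w : κ → F)]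
      rfl

end Cfsg.Agent.Lib.Helper56.OMPT2
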