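import Mathlib

/-! TIF piece T3b (S5662, helper71's sub-project): `q` odd: the factor forms are all skew and the
number of factors is odd. -/

set_option autoImplicit false

namespace Cfsg.Agent.Lib.Helper56.TIFT3b

open Matrix

variable {n : ℕ} {F : Type*} [Field F] [Fintype F]

/-- T3b: `q` odd: the factor forms are all skew and the number of factors is odd. -/
theorem T3b {m k : ℕ} (hm : 1 ≤ m) (h2 : (2 : F) ≠ 0) (c : F) (hc : c ≠ 0)
    (Gs : Fin k → Matrix (Fin m) (Fin m) F) (hdet : ∀ i, (Gs i).det ≠ 0)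
    (hsym : ∀ i, (Gs i)ᵀ = Gs i ∨ (Gs i)ᵀ = -Gs i)
    (hconj : ∀ i j, ∃ (μ : F) (B : GL (Fin m) F), μ ≠ 0 ∧ B.1ᵀ * Gs j * B.1 = μ • Gs i)
    (G : Matrix (Fin k → Fin m) (Fin k → Fin m) F)
    (hG : ∀ a b, G a b = c * ∏ i, Gs i (a i) (b i)) (hskew : Gᵀ = -G) :
    Odd k ∧ ∀ i, (Gs i)ᵀ = -Gs i := by
  have : Nonempty (Fin m) := ⟨⟨0, by omega⟩⟩
  have hne : ∀ i, ∃ u v, Gs i u v ≠ 0 := by
    intro i
    by_contra hcon
    push Not at hcon
    apply hdet i
    have h0 : Gs i = 0 := by
      ext u v
      exact hcon u v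
    rw [h0, Matrix.det_zero]
  choose u v huv using hne
  have hGuv : G u v ≠ 0 := by
    rw [hG]
    exact mul_ne_zero hc (Finset.prod_ne_zero_iff.2 fun i _ => huv i)
  have hsk : G v u = - G u v := by
    have h := congrFun (congrFun hskew u) v
    simpa [Matrix.transpose_apply] using h
  have hself : G u v + G u v ≠ 0 := by
    rw [← two_mul]
    exact mul_ne_zero h2 hGuv
  have hnosym : ∀ j, (Gs j)ᵀ ≠ Gs j := by
    intro j hj
    have hall : ∀ i, (Gs i)ᵀ = Gs i := by
      intro i
      obtain ⟨μ, B, hμ, hB⟩ := hconj i j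
      have h1 : (μ • Gs i)ᵀ = μ • Gs i := by
        rw [← hB, Matrix.transpose_mul, Matrix.transpose_mul, Matrix.transpose_transpose, hj,
          Matrix.mul_assoc]
      rw [Matrix.transpose_smul] at h1
      exact smul_right_injective _ hμ h1
    apply hself
    have h3 : G v u = G u v := by
      rw [hG, hG]
      congr 1
      apply Finset.prod_congr rfl
      intro i _
      have h := congrFun (congrFun (hall i) (u i)) (v i)
      simpa [Matrix.transpose_apply] using h
    rw [hsk] at h3
    linear_combination -h3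
  have hallskew : ∀ i, (Gs i)ᵀ = -Gs i := fun i => (hsym i).resolve_left (hnosym i)
  refine ⟨?_, hallskew⟩
  rw [← Nat.not_even_iff_odd]
  intro hev
  apply hself
  have h3 : G v u = G u v := by
    rw [hG, hG]
    congr 1
    have h1 : ∀ i, Gs i (v i) (u i) = - Gs i (u i) (v i) := by
      intro i
      have h := congrFun (congrFun (hallskew i) (u i)) (v i)
      simpa [Matrix.transpose_apply] using h
    simp_rw [h1]
    rw [Finset.prod_neg]
    simp [hev.neg_one_pow]
  rw [hsk] at h3
  linear_combination -h3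

end Cfsg.Agent.Lib.Helper56.TIFT3b
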