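import Mathlib
import Cfsg.Prelude.Def_GeometricClasses
import Cfsg.Prelude.Def_LieClassical

/-!
# Project OMP (S5814 / S5859, helper71): piece O4

A group of isometries of a non-degenerate quadratic form (`n` odd, `2 ≠ 0`) whose commutant has a
field subalgebra of degree `n` in its centre is scalar.
-/

set_option autoImplicit false

namespace Cfsg.Agent.Lib.Helper56.OMPO4

open Matrix Cfsg.Geo

variable {n : ℕ} {F : Type*} [Field F] [Fintype F]

omit [Fintype F] in
/-- the Gram matrix of the polar form: symmetric and invertible -/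
theorem O4_gram (Q : (Fin n → F) → F) (hQ : IsNondegenerateQuadraticForm Q) :
    ∃ G : Matrix (Fin n) (Fin n) F,
      (∀ u v, QuadraticMap.polar Q u v = u ⬝ᵥ (G *ᵥ v)) ∧ Gᵀ = G ∧ G.det ≠ 0 := by
  classical
  let B : LinearMap.BilinForm F (Fin n → F) :=
    LinearMap.mk₂ F (QuadraticMap.polar Q) hQ.polar_bilinear.add_left
      (fun c x v => by rw [smul_eq_mul]; exact hQ.polar_bilinear.smul_left c x v)
      hQ.polar_bilinear.add_right
      (fun c x v => by rw [smul_eq_mul]; exact hQ.polar_bilinear.smul_right c x v)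
  have hB : ∀ u v, B u v = QuadraticMap.polar Q u v := fun u v => rfl
  have hG : ∀ u v, QuadraticMap.polar Q u v =
      u ⬝ᵥ (LinearMap.BilinForm.toMatrix' B *ᵥ v) := by
    intro u v
    rw [← hB, ← Matrix.toBilin'_apply', Matrix.toBilin'_toMatrix']
  refine ⟨LinearMap.BilinForm.toMatrix' B, hG, ?_, ?_⟩
  · ext i j
    rw [Matrix.transpose_apply, LinearMap.BilinForm.toMatrix'_apply,
      LinearMap.BilinForm.toMatrix'_apply, hB, hB, QuadraticMap.polar_comm]
  · intro hdet
    obtain ⟨v, hv, hGv⟩ := Matrix.exists_mulVec_eq_zero_iff.mpr hdet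
    obtain ⟨x, hx⟩ := (hQ.nondegenerate v hv).1
    apply hx
    rw [hG, hGv, dotProduct_zero]

omit [Fintype F] in
/-- a field subalgebra of degree `n` of `M_n(F)` is its own centraliser -/
theorem O4_cent (hn : 1 ≤ n) (K : Subalgebra F (Matrix (Fin n) (Fin n) F))
    (hK : IsFieldSubalgebra n K) (X : Matrix (Fin n) (Fin n) F)
    (hX : ∀ z ∈ K, z * X = X * z) : X ∈ K := by
  classical
  obtain ⟨v₀, hv₀⟩ : ∃ v₀ : Fin n → F, v₀ ≠ 0 := ⟨fun _ => 1, by
    intro h
    have := congrFun h ⟨0, by omega⟩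
    simp at this⟩
  let φ : K →ₗ[F] (Fin n → F) :=
    { toFun := fun k => (k : Matrix (Fin n) (Fin n) F) *ᵥ v₀
      map_add' := fun a b => by
        show ((a + b : K) : Matrix (Fin n) (Fin n) F) *ᵥ v₀ = _
        rw [Subalgebra.coe_add, Matrix.add_mulVec]
      map_smul' := fun c a => by
        show ((c • a : K) : Matrix (Fin n) (Fin n) F) *ᵥ v₀ = _
        rw [Subalgebra.coe_smul, Matrix.smul_mulVec]
        rfl }
  have hφ : ∀ k : K, φ k = (k : Matrix (Fin n) (Fin n) F) *ᵥ v₀ := fun _ => rfl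
  have hinj : Function.Injective φ := by
    rw [injective_iff_map_eq_zero]
    intro k hk
    by_contra hk0
    have hk0' : (k : Matrix (Fin n) (Fin n) F) ≠ 0 := fun h => hk0 (Subtype.ext h)
    obtain ⟨y, hy, hky⟩ := hK.inv k.1 k.2 hk0'
    have hyk : y * k.1 = 1 := by rw [hK.comm y hy k.1 k.2]; exact hky
    apply hv₀
    have h1 : v₀ = (y * k.1) *ᵥ v₀ := by rw [hyk, Matrix.one_mulVec]
    have hk' : k.1 *ᵥ v₀ = 0 := hk
    rw [h1, ← Matrix.mulVec_mulVec, hk', Matrix.mulVec_zero]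
  have hfin : Module.finrank F K = Module.finrank F (Fin n → F) := by
    rw [hK.finrank_eq, Module.finrank_fin_fun]
  have hsurj : Function.Surjective φ :=
    (LinearMap.injective_iff_surjective_of_finrank_eq_finrank hfin).1 hinj
  obtain ⟨k₀, hk₀⟩ := hsurj (X *ᵥ v₀)
  have hk₀' : k₀.1 *ᵥ v₀ = X *ᵥ v₀ := hk₀
  have hXk : X = k₀.1 := by
    apply Matrix.toLin'.injective
    apply LinearMap.ext
    intro v
    obtain ⟨k, hk⟩ := hsurj v
    have hk' : k.1 *ᵥ v₀ = v := hk
    rw [Matrix.toLin'_apply, Matrix.toLin'_apply, ← hk', Matrix.mulVec_mulVec, ← hX k.1 k.2,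
      ← Matrix.mulVec_mulVec, ← hk₀', Matrix.mulVec_mulVec, Matrix.mulVec_mulVec,
      hK.comm k.1 k.2 k₀.1 k₀.2]
  rw [hXk]
  exact k₀.2

/-- O4: a group of isometries (`n` odd) whose commutant has a field subalgebra of degree `n` in its
centre is scalar. -/
theorem O4 (Q : (Fin n → F) → F) (hQ : IsNondegenerateQuadraticForm Q) (h2 : (2 : F) ≠ 0)
    (hodd : Odd n) (L : Subgroup (GL (Fin n) F)) (hfix : FixesQuadForm (matrixSet L) Q)
    (K : Subalgebra F (Matrix (Fin n) (Fin n) F)) (hK : IsFieldSubalgebra n K)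
    (hKc : ∀ z ∈ K, (∀ x ∈ L, z * x.1 = x.1 * z) ∧
      ∀ X : Matrix (Fin n) (Fin n) F, (∀ x ∈ L, X * x.1 = x.1 * X) → z * X = X * z) :
    L ≤ scalars (Fin n) F := by
  classical
  have hn1 : 1 ≤ n := by
    obtain ⟨k, hk⟩ := hodd
    omega
  obtain ⟨G, hG, hGsymm, hGdet⟩ := O4_gram Q hQ
  have hGu : IsUnit G.det := isUnit_iff_ne_zero.mpr hGdet
  obtain ⟨Gi, hGi1, hGi2⟩ : ∃ Gi : Matrix (Fin n) (Fin n) F, Gi * G = 1 ∧ G * Gi = 1 :=
    ⟨G⁻¹, Matrix.nonsing_inv_mul G hGu, Matrix.mul_nonsing_inv G hGu⟩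
  have hGit : Giᵀ = Gi := by
    calc Giᵀ = Giᵀ * (G * Gi) := by rw [hGi2, Matrix.mul_one]
      _ = (G * Gi)ᵀ * Gi := by rw [Matrix.transpose_mul, hGsymm, Matrix.mul_assoc]
      _ = Gi := by rw [hGi2, Matrix.transpose_one, Matrix.one_mul]
  -- the adjoint
  obtain ⟨st, hst⟩ : ∃ st : Matrix (Fin n) (Fin n) F → Matrix (Fin n) (Fin n) F,
      ∀ X, st X = Gi * Xᵀ * G := ⟨fun X => Gi * Xᵀ * G, fun _ => rfl⟩
  have hst_mul : ∀ X Y, st (X * Y) = st Y * st X := by
    intro X Y
    rw [hst, hst, hst, Matrix.transpose_mul]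
    calc Gi * (Yᵀ * Xᵀ) * G = Gi * Yᵀ * 1 * Xᵀ * G := by
          rw [Matrix.mul_one]
          simp only [Matrix.mul_assoc]
      _ = Gi * Yᵀ * (G * Gi) * Xᵀ * G := by rw [hGi2]
      _ = Gi * Yᵀ * G * (Gi * Xᵀ * G) := by simp only [Matrix.mul_assoc]
  have hst_st : ∀ X, st (st X) = X := by
    intro X
    rw [hst, hst, Matrix.transpose_mul, Matrix.transpose_mul, Matrix.transpose_transpose,
      hGsymm, hGit]
    calc Gi * (G * (X * Gi)) * G = (Gi * G) * X * (Gi * G) := by simp only [Matrix.mul_assoc]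
      _ = X := by rw [hGi1, Matrix.one_mul, Matrix.mul_one]
  have hst_add : ∀ X Y, st (X + Y) = st X + st Y := by
    intro X Y
    rw [hst, hst, hst, Matrix.transpose_add, Matrix.mul_add, Matrix.add_mul]
  have hst_sub : ∀ X Y, st (X - Y) = st X - st Y := by
    intro X Y
    rw [hst, hst, hst, Matrix.transpose_sub, Matrix.mul_sub, Matrix.sub_mul]
  have hst_smul : ∀ (c : F) X, st (c • X) = c • st X := by
    intro c X
    rw [hst, hst, Matrix.transpose_smul, Matrix.mul_smul, Matrix.smul_mul]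
  have hent : ∀ (A : Matrix (Fin n) (Fin n) F) i j,
      Pi.single i 1 ⬝ᵥ (A *ᵥ Pi.single j 1) = A i j := by
    intro A i j
    simp
  -- isometries
  have hstL : ∀ x ∈ L, st x.1 = (x⁻¹ : GL (Fin n) F).1 := by
    intro x hx
    have hiso : x.1ᵀ * G * x.1 = G := by
      have hpol : ∀ u v, QuadraticMap.polar Q (x.1 *ᵥ u) (x.1 *ᵥ v) =
          QuadraticMap.polar Q u v := by
        intro u v
        unfold QuadraticMap.polar
        rw [← Matrix.mulVec_add, hfix _ ⟨x, hx, rfl⟩, hfix _ ⟨x, hx, rfl⟩,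
          hfix _ ⟨x, hx, rfl⟩]
      ext i j
      have h3 := hpol (Pi.single i 1) (Pi.single j 1)
      rw [hG, hG] at h3
      have h4 : (x.1 *ᵥ Pi.single i 1) ⬝ᵥ (G *ᵥ (x.1 *ᵥ Pi.single j 1)) =
          Pi.single i 1 ⬝ᵥ ((x.1ᵀ * G * x.1) *ᵥ Pi.single j 1) := by
        rw [← Matrix.mulVec_mulVec, ← Matrix.mulVec_mulVec, Matrix.dotProduct_mulVec _ x.1ᵀ,
          Matrix.vecMul_transpose]
      rw [h4, hent, hent] at h3
      exact h3
    rw [hst]
    have h4 : Gi * x.1ᵀ * G * x.1 = 1 := by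
      rw [Matrix.mul_assoc, Matrix.mul_assoc, ← Matrix.mul_assoc x.1ᵀ, hiso, hGi1]
    calc Gi * x.1ᵀ * G = Gi * x.1ᵀ * G * (x.1 * (x⁻¹ : GL (Fin n) F).1) := by
          rw [← Units.val_mul, mul_inv_cancel, Units.val_one, Matrix.mul_one]
      _ = (Gi * x.1ᵀ * G * x.1) * (x⁻¹ : GL (Fin n) F).1 := by rw [← Matrix.mul_assoc]
      _ = (x⁻¹ : GL (Fin n) F).1 := by rw [h4, Matrix.one_mul]
  -- the commutant is closed under the adjoint
  have hE : ∀ X : Matrix (Fin n) (Fin n) F, (∀ x ∈ L, X * x.1 = x.1 * X) →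
      ∀ x ∈ L, st X * x.1 = x.1 * st X := by
    intro X hX x hx
    have h5 := congrArg st (hX x hx)
    rw [hst_mul, hst_mul, hstL x hx] at h5
    calc st X * x.1 = (x.1 * (x⁻¹ : GL (Fin n) F).1) * st X * x.1 := by
          rw [← Units.val_mul, mul_inv_cancel, Units.val_one, Matrix.one_mul]
      _ = x.1 * ((x⁻¹ : GL (Fin n) F).1 * st X) * x.1 := by simp only [Matrix.mul_assoc]
      _ = x.1 * (st X * (x⁻¹ : GL (Fin n) F).1) * x.1 := by rw [h5]
      _ = x.1 * st X * ((x⁻¹ : GL (Fin n) F).1 * x.1) := by simp only [Matrix.mul_assoc]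
      _ = x.1 * st X := by
          rw [← Units.val_mul, inv_mul_cancel, Units.val_one, Matrix.mul_one]
  have hKE : ∀ X : Matrix (Fin n) (Fin n) F, (∀ x ∈ L, X * x.1 = x.1 * X) → X ∈ K := by
    intro X hX
    exact O4_cent hn1 K hK X (fun z hz => (hKc z hz).2 X hX)
  have hstK : ∀ k ∈ K, st k ∈ K := by
    intro k hk
    exact hKE _ (hE k (hKc k hk).1)
  -- no non-zero element of `K` is mapped to its negative
  have hanti : ∀ θ ∈ K, st θ = -θ → θ = 0 := by
    intro θ hθ hθst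
    by_contra hθ0
    obtain ⟨y, hy, hθy⟩ := hK.inv θ hθ hθ0
    let T : K →ₗ[F] K :=
      { toFun := fun k => ⟨st k.1, hstK k.1 k.2⟩
        map_add' := fun a b => Subtype.ext (by
          show st ((a + b : K) : Matrix (Fin n) (Fin n) F) = st a.1 + st b.1
          rw [Subalgebra.coe_add, hst_add])
        map_smul' := fun c a => Subtype.ext (by
          show st ((c • a : K) : Matrix (Fin n) (Fin n) F) = c • st a.1
          rw [Subalgebra.coe_smul, hst_smul]) }
    let m : K →ₗ[F] K := LinearMap.mulLeft F (⟨θ, hθ⟩ : K)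
    let m' : K →ₗ[F] K := LinearMap.mulLeft F (⟨y, hy⟩ : K)
    have hmm' : m ∘ₗ m' = LinearMap.id := by
      apply LinearMap.ext
      intro k
      apply Subtype.ext
      show θ * (y * k.1) = k.1
      rw [← Matrix.mul_assoc, hθy, Matrix.one_mul]
    have hTT : T ∘ₗ T = LinearMap.id := by
      apply LinearMap.ext
      intro k
      apply Subtype.ext
      show st (st k.1) = k.1
      exact hst_st k.1
    have hTm : T ∘ₗ m = (-1 : F) • (m ∘ₗ T) := by
      apply LinearMap.ext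
      intro k
      apply Subtype.ext
      show st (θ * k.1) = (-1 : F) • (θ * st k.1)
      rw [hst_mul, hθst, hK.comm (st k.1) (hstK k.1 k.2) (-θ) (K.neg_mem hθ), neg_mul,
        neg_smul, one_smul]
    have hd1 : LinearMap.det T * LinearMap.det T = 1 := by
      rw [← LinearMap.det_comp, hTT, LinearMap.det_id]
    have hd2 : LinearMap.det m * LinearMap.det m' = 1 := by
      rw [← LinearMap.det_comp, hmm', LinearMap.det_id]
    have hd3 : LinearMap.det T * LinearMap.det m =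
        -(LinearMap.det m * LinearMap.det T) := by
      rw [← LinearMap.det_comp, hTm, LinearMap.det_smul, hK.finrank_eq, hodd.neg_one_pow,
        LinearMap.det_comp]
      ring
    have hd4 : LinearMap.det T * LinearMap.det m = 0 := by
      have h8 : (2 : F) * (LinearMap.det T * LinearMap.det m) = 0 := by
        linear_combination hd3
      exact (mul_eq_zero.mp h8).resolve_left h2
    rcases mul_eq_zero.mp hd4 with h0 | h0
    · rw [h0, zero_mul] at hd1
      exact zero_ne_one hd1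
    · rw [h0, zero_mul] at hd2
      exact zero_ne_one hd2
  have hstid : ∀ k ∈ K, st k = k := by
    intro k hk
    have h6 := hanti (k - st k) (K.sub_mem hk (hstK k hk)) (by
      rw [hst_sub, hst_st]
      abel)
    exact (sub_eq_zero.mp h6).symm
  -- conclusion
  intro x hx
  have hxK : x.1 ∈ K := O4_cent hn1 K hK x.1 (fun z hz => (hKc z hz).1 x hx)
  have hxinv : (x⁻¹ : GL (Fin n) F).1 = x.1 := by rw [← hstL x hx, hstid x.1 hxK]
  have hxx : x.1 * x.1 = 1 := by
    have h9 : (x⁻¹ : GL (Fin n) F).1 * x.1 = 1 := by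
      rw [← Units.val_mul, inv_mul_cancel, Units.val_one]
    rw [hxinv] at h9
    exact h9
  have hprod : (x.1 - 1) * (x.1 + 1) = 0 := by
    have h10 : (x.1 - 1) * (x.1 + 1) = x.1 * x.1 - 1 := by noncomm_ring
    rw [h10, hxx, sub_self]
  rw [mem_scalars_iff]
  by_cases hx1 : x.1 - 1 = 0
  · refine ⟨1, ?_⟩
    rw [Units.val_one, one_smul]
    exact sub_eq_zero.mp hx1
  · obtain ⟨y, hy, hxy⟩ := hK.inv (x.1 - 1) (K.sub_mem hxK K.one_mem) hx1
    have hyx : y * (x.1 - 1) = 1 := by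
      rw [hK.comm y hy _ (K.sub_mem hxK K.one_mem)]
      exact hxy
    have h7 : x.1 + 1 = 0 := by
      calc x.1 + 1 = (y * (x.1 - 1)) * (x.1 + 1) := by rw [hyx, Matrix.one_mul]
        _ = y * ((x.1 - 1) * (x.1 + 1)) := by rw [Matrix.mul_assoc]
        _ = 0 := by rw [hprod, Matrix.mul_zero]
    refine ⟨-1, ?_⟩
    rw [Units.val_neg, Units.val_one, neg_smul, one_smul]
    exact eq_neg_of_add_eq_zero_left h7

end Cfsg.Agent.Lib.Helper56.OMPO4
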