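import Mathlib
import Cfsg.Prelude.Def_GeometricClasses
import Cfsg.Prelude.Def_LieClassical

/-!
# Project OMP (S5814 / S5859, helper71): piece OD (OD1 + OD2)

The standard odd-dimensional quadratic form `quadFormOdd m F` is non-degenerate for odd `|F|`,
and the determinant of the Gram matrix of its polar form is `2 * (-1) ^ m`.
-/

set_option autoImplicit false

namespace Cfsg.Agent.Lib.Helper56.OMPOD

open Matrix Cfsg.Geo

variable {n : ℕ} {F : Type*} [Field F] [Fintype F]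

/-- the Gram matrix of the polar form of `quadFormOdd` -/
def odGram (m : ℕ) (F : Type*) [Field F] :
    Matrix (Unit ⊕ (Fin m ⊕ Fin m)) (Unit ⊕ (Fin m ⊕ Fin m)) F :=
  Matrix.fromBlocks ((2 : F) • (1 : Matrix Unit Unit F)) 0 0 (Matrix.fromBlocks 0 1 1 0)

omit [Fintype F] in
theorem OD_form_eq (m : ℕ) (x y : Unit ⊕ (Fin m ⊕ Fin m) → F) :
    x ⬝ᵥ (odGram m F *ᵥ y) = 2 * x (.inl ()) * y (.inl ())
      + ∑ i : Fin m, (x (.inr (.inl i)) * y (.inr (.inr i))
        + x (.inr (.inr i)) * y (.inr (.inl i))) := by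
  simp only [odGram, dotProduct, Matrix.fromBlocks_mulVec, Fintype.sum_sum_type,
    Sum.elim_inl, Sum.elim_inr, Matrix.zero_mulVec, Matrix.smul_mulVec, Matrix.one_mulVec,
    Pi.smul_apply, Function.comp_apply, zero_add, add_zero,
    smul_eq_mul, Finset.univ_unique, Finset.sum_singleton]
  rw [Finset.sum_add_distrib]
  congr 1
  ring

omit [Fintype F] in
theorem OD_polar (m : ℕ) (x y : Unit ⊕ (Fin m ⊕ Fin m) → F) :
    QuadraticMap.polar (Cfsg.quadFormOdd m F) x y = x ⬝ᵥ (odGram m F *ᵥ y) := by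
  rw [OD_form_eq]
  unfold QuadraticMap.polar
  simp only [Cfsg.quadFormOdd, Pi.add_apply]
  have h : ∑ i : Fin m, (x (.inr (.inl i)) + y (.inr (.inl i)))
        * (x (.inr (.inr i)) + y (.inr (.inr i)))
      = ∑ i : Fin m, x (.inr (.inl i)) * x (.inr (.inr i))
        + ∑ i : Fin m, y (.inr (.inl i)) * y (.inr (.inr i))
        + ∑ i : Fin m, (x (.inr (.inl i)) * y (.inr (.inr i))
          + x (.inr (.inr i)) * y (.inr (.inl i))) := by
    rw [← Finset.sum_add_distrib, ← Finset.sum_add_distrib]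
    exact Finset.sum_congr rfl (fun i _ => by ring)
  rw [h]
  ring

omit [Fintype F] in
theorem OD_det_swap (m : ℕ) :
    (Matrix.fromBlocks (0 : Matrix (Fin m) (Fin m) F) (1 : Matrix (Fin m) (Fin m) F)
      (1 : Matrix (Fin m) (Fin m) F) (0 : Matrix (Fin m) (Fin m) F)).det = (-1) ^ m := by
  have h1 : (Matrix.fromBlocks (0 : Matrix (Fin m) (Fin m) F) (1 : Matrix (Fin m) (Fin m) F)
      (1 : Matrix (Fin m) (Fin m) F) (0 : Matrix (Fin m) (Fin m) F)) *
      (Matrix.fromBlocks (1 : Matrix (Fin m) (Fin m) F) (1 : Matrix (Fin m) (Fin m) F)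
        (0 : Matrix (Fin m) (Fin m) F) (1 : Matrix (Fin m) (Fin m) F)) =
      Matrix.fromBlocks (0 : Matrix (Fin m) (Fin m) F) (1 : Matrix (Fin m) (Fin m) F)
        (1 : Matrix (Fin m) (Fin m) F) (1 : Matrix (Fin m) (Fin m) F) := by
    rw [Matrix.fromBlocks_multiply]
    simp
  have h2 : (Matrix.fromBlocks (1 : Matrix (Fin m) (Fin m) F) (1 : Matrix (Fin m) (Fin m) F)
      (0 : Matrix (Fin m) (Fin m) F) (1 : Matrix (Fin m) (Fin m) F)).det = 1 := by
    rw [Matrix.det_fromBlocks_zero₂₁, Matrix.det_one, mul_one]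
  have h3 : (Matrix.fromBlocks (0 : Matrix (Fin m) (Fin m) F) (1 : Matrix (Fin m) (Fin m) F)
      (1 : Matrix (Fin m) (Fin m) F) (1 : Matrix (Fin m) (Fin m) F)).det = (-1) ^ m := by
    rw [Matrix.det_fromBlocks_one₂₂, Matrix.one_mul, zero_sub, Matrix.det_neg, Matrix.det_one,
      mul_one, Fintype.card_fin]
  have h4 := congrArg Matrix.det h1
  rw [Matrix.det_mul, h2, mul_one, h3] at h4
  exact h4

omit [Fintype F] in
theorem OD_det (m : ℕ) : (odGram m F).det = 2 * (-1) ^ m := by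
  unfold odGram
  rw [Matrix.det_fromBlocks_zero₂₁, OD_det_swap]
  congr 1
  simp

omit [Fintype F] in
theorem OD_gram (m : ℕ) :
    gramMatrix (QuadraticMap.polar (Cfsg.quadFormOdd m F)) = odGram m F := by
  ext a b
  unfold gramMatrix
  rw [OD_polar]
  simp

/-- OD1 -/
theorem OD1 (hodd : Odd (Fintype.card F)) (m : ℕ) :
    IsNondegenerateQuadraticForm (Cfsg.quadFormOdd m F) := by
  classical
  have h2 : (2 : F) ≠ 0 := by
    intro h
    have hch : ringChar F ∣ 2 := (ringChar.spec F 2).mp (by exact_mod_cast h)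
    have hdc : ringChar F ∣ Fintype.card F := by
      have := (ringChar.spec F (Fintype.card F)).mp (by simp)
      exact this
    have hpr : (ringChar F).Prime := CharP.char_is_prime F (ringChar F)
    have h2' : ringChar F = 2 := (Nat.prime_dvd_prime_iff_eq hpr Nat.prime_two).mp hch
    rw [h2'] at hdc
    exact (Nat.not_even_iff_odd.mpr hodd) (even_iff_two_dvd.mpr hdc)
  have hdet : (odGram m F).det ≠ 0 := by
    rw [OD_det]
    exact mul_ne_zero h2 (pow_ne_zero _ (neg_ne_zero.mpr one_ne_zero))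
  have hleft : ∀ v : Unit ⊕ (Fin m ⊕ Fin m) → F, v ≠ 0 →
      ∃ x, QuadraticMap.polar (Cfsg.quadFormOdd m F) x v ≠ 0 := by
    intro v hv
    have h1 : odGram m F *ᵥ v ≠ 0 := fun h => hv (Matrix.eq_zero_of_mulVec_eq_zero hdet h)
    obtain ⟨a, ha⟩ := Function.ne_iff.mp h1
    refine ⟨Pi.single a 1, ?_⟩
    rw [OD_polar]
    simpa using ha
  refine ⟨?_, ⟨?_, ?_, ?_, ?_⟩, ?_⟩
  · intro c v
    simp only [Cfsg.quadFormOdd, Pi.smul_apply, smul_eq_mul]
    rw [mul_add, Finset.mul_sum]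
    congr 1
    · ring
    · exact Finset.sum_congr rfl (fun i _ => by ring)
  · intro x y v
    rw [OD_polar, OD_polar, OD_polar, add_dotProduct]
  · intro c x v
    rw [OD_polar, OD_polar, smul_dotProduct, smul_eq_mul]
  · intro v x y
    rw [OD_polar, OD_polar, OD_polar, Matrix.mulVec_add, dotProduct_add]
  · intro c v x
    rw [OD_polar, OD_polar, Matrix.mulVec_smul, dotProduct_smul, smul_eq_mul]
  · intro v hv
    obtain ⟨x, hx⟩ := hleft v hv
    exact ⟨⟨x, hx⟩, ⟨x, by rw [QuadraticMap.polar_comm]; exact hx⟩⟩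

/-- OD2 -/
theorem OD2 (m : ℕ) :
    (gramMatrix (QuadraticMap.polar (Cfsg.quadFormOdd m F))).det = 2 * (-1) ^ m := by
  rw [OD_gram, OD_det]

end Cfsg.Agent.Lib.Helper56.OMPOD
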