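import Cfsg.Agent.Lib.Helper52.SP8EBDefs

/-! SP8-EB (sub-project of S5823, architect helper52), piece QCONJ (helper56): the quaternion set
is stable under conjugation. -/

set_option autoImplicit false

namespace Cfsg.Agent.Lib.Helper52.SP8EB

open Matrix Cfsg.Geo Cfsg.Agent.Lib.Helper71.Asch

variable {n : ℕ} {F : Type*} [Field F] [Fintype F]

/-- QCONJ [easy, any field]: det, trace, ±1 are conjugation invariant. -/
theorem QCONJ : HQconj F := by
  intro x hx g h hgh
  have hhg : h * g = 1 := _root_.mul_eq_one_comm.1 hgh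
  refine ⟨?_, ?_⟩
  · have h1 : g.det * h.det = 1 := by
      rw [← Matrix.det_mul, hgh, Matrix.det_one]
    rw [Matrix.det_mul, Matrix.det_mul, hx.1, mul_one, h1]
  · rcases hx.2 with h1 | h1 | h1
    · left
      rw [h1, Matrix.mul_one, hgh]
    · right; left
      rw [h1, Matrix.mul_neg, Matrix.mul_one, Matrix.neg_mul, hgh]
    · right; right
      rw [Matrix.trace_mul_comm, ← Matrix.mul_assoc, hhg, Matrix.one_mul, h1]

end Cfsg.Agent.Lib.Helper52.SP8EB
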