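import Cfsg.Agent.Lib.Helper70.D11Defs

set_option autoImplicit false

namespace Cfsg.Agent.Lib.Helper56.D11

open Equiv Cfsg.Agent.Lib.Helper70.D11

/-! ## Piece DIG of S0679: digits and codes -/

theorem dig_mk_eq (d0 d1 d2 d3 d4 d5 d6 d7 d8 d9 d10 : ℕ) :
    mk d0 d1 d2 d3 d4 d5 d6 d7 d8 d9 d10 =
      d0 + 16 * (d1 + 16 * (d2 + 16 * (d3 + 16 * (d4 + 16 * (d5 + 16 * (d6 + 16 * (d7 + 16 *
        (d8 + 16 * (d9 + 16 * d10))))))))) := rfl

theorem dig_gt_eq (p i : ℕ) : gt p i = p / 16 ^ i % 16 := rfl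

/-- The digits of a number given by eleven digits. -/
theorem dig_gt_mk (d0 d1 d2 d3 d4 d5 d6 d7 d8 d9 d10 : ℕ) (h0 : d0 < 16) (h1 : d1 < 16)
    (h2 : d2 < 16) (h3 : d3 < 16) (h4 : d4 < 16) (h5 : d5 < 16) (h6 : d6 < 16) (h7 : d7 < 16)
    (h8 : d8 < 16) (h9 : d9 < 16) (h10 : d10 < 16) :
    gt (mk d0 d1 d2 d3 d4 d5 d6 d7 d8 d9 d10) 0 = d0 ∧
    gt (mk d0 d1 d2 d3 d4 d5 d6 d7 d8 d9 d10) 1 = d1 ∧
    gt (mk d0 d1 d2 d3 d4 d5 d6 d7 d8 d9 d10) 2 = d2 ∧
    gt (mk d0 d1 d2 d3 d4 d5 d6 d7 d8 d9 d10) 3 = d3 ∧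
    gt (mk d0 d1 d2 d3 d4 d5 d6 d7 d8 d9 d10) 4 = d4 ∧
    gt (mk d0 d1 d2 d3 d4 d5 d6 d7 d8 d9 d10) 5 = d5 ∧
    gt (mk d0 d1 d2 d3 d4 d5 d6 d7 d8 d9 d10) 6 = d6 ∧
    gt (mk d0 d1 d2 d3 d4 d5 d6 d7 d8 d9 d10) 7 = d7 ∧
    gt (mk d0 d1 d2 d3 d4 d5 d6 d7 d8 d9 d10) 8 = d8 ∧
    gt (mk d0 d1 d2 d3 d4 d5 d6 d7 d8 d9 d10) 9 = d9 ∧
    gt (mk d0 d1 d2 d3 d4 d5 d6 d7 d8 d9 d10) 10 = d10 := by
  simp only [dig_gt_eq, dig_mk_eq]
  norm_num
  refine ⟨?_, ?_, ?_, ?_, ?_, ?_, ?_, ?_, ?_, ?_, ?_⟩ <;> omega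

theorem dig_lt (g : P11) (i : Fin 11) : ((g i : Fin 11) : ℕ) < 16 :=
  lt_trans (g i).isLt (by norm_num)

theorem gt_code (g : P11) (i : Fin 11) : gt (code g) (i : ℕ) = ((g i : Fin 11) : ℕ) := by
  obtain ⟨k0, k1, k2, k3, k4, k5, k6, k7, k8, k9, k10⟩ :=
    dig_gt_mk (g 0) (g 1) (g 2) (g 3) (g 4) (g 5) (g 6) (g 7) (g 8) (g 9) (g 10)
      (dig_lt g 0) (dig_lt g 1) (dig_lt g 2) (dig_lt g 3) (dig_lt g 4) (dig_lt g 5) (dig_lt g 6)
      (dig_lt g 7) (dig_lt g 8) (dig_lt g 9) (dig_lt g 10)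
  obtain ⟨j, hj⟩ := i
  interval_cases j
  · exact k0
  · exact k1
  · exact k2
  · exact k3
  · exact k4
  · exact k5
  · exact k6
  · exact k7
  · exact k8
  · exact k9
  · exact k10

theorem code_mul (g h : P11) : code (g * h) = cmpC (code g) (code h) := by
  have e : ∀ i : Fin 11, gt (code g) (gt (code h) (i : ℕ)) = ((g (h i) : Fin 11) : ℕ) :=
    fun i => by rw [gt_code h i, gt_code g (h i)]
  have e0 : gt (code g) (gt (code h) 0) = ((g (h 0) : Fin 11) : ℕ) := e 0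
  have e1 : gt (code g) (gt (code h) 1) = ((g (h 1) : Fin 11) : ℕ) := e 1
  have e2 : gt (code g) (gt (code h) 2) = ((g (h 2) : Fin 11) : ℕ) := e 2
  have e3 : gt (code g) (gt (code h) 3) = ((g (h 3) : Fin 11) : ℕ) := e 3
  have e4 : gt (code g) (gt (code h) 4) = ((g (h 4) : Fin 11) : ℕ) := e 4
  have e5 : gt (code g) (gt (code h) 5) = ((g (h 5) : Fin 11) : ℕ) := e 5
  have e6 : gt (code g) (gt (code h) 6) = ((g (h 6) : Fin 11) : ℕ) := e 6
  have e7 : gt (code g) (gt (code h) 7) = ((g (h 7) : Fin 11) : ℕ) := e 7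
  have e8 : gt (code g) (gt (code h) 8) = ((g (h 8) : Fin 11) : ℕ) := e 8
  have e9 : gt (code g) (gt (code h) 9) = ((g (h 9) : Fin 11) : ℕ) := e 9
  have e10 : gt (code g) (gt (code h) 10) = ((g (h 10) : Fin 11) : ℕ) := e 10
  unfold cmpC
  rw [e0, e1, e2, e3, e4, e5, e6, e7, e8, e9, e10]
  rfl

theorem code_injective : Function.Injective code := by
  intro g h hgh
  apply Equiv.ext
  intro i
  apply Fin.ext
  rw [← gt_code g i, ← gt_code h i, hgh]

theorem code_one : code 1 = idc := by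
  decide

theorem code_wprod (gp : ℕ → P11) (w : List ℕ) :
    code (wprod gp w) = evalC (fun j => code (gp j)) w := by
  induction w with
  | nil => exact code_one
  | cons j w ih =>
    cases w with
    | nil =>
      show code (([j].map gp).prod) = code (gp j)
      rw [List.map_cons, List.map_nil, List.prod_cons, List.prod_nil, mul_one]
    | cons k w' =>
      show code (((j :: k :: w').map gp).prod) =
        sapp (fun p => sapp (fun r => cmpC p r) (evalC (fun j => code (gp j)) (k :: w')))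
          (code (gp j))
      rw [sapp_eq, sapp_eq, ← ih, List.map_cons, List.prod_cons, code_mul]
      rfl

theorem wprod_mem (gp : ℕ → P11) (S : Subgroup P11) (h : ∀ j, gp j ∈ S) (w : List ℕ) :
    wprod gp w ∈ S := by
  unfold wprod
  apply Subgroup.list_prod_mem
  intro x hx
  obtain ⟨j, _, rfl⟩ := List.mem_map.1 hx
  exact h j

theorem memL_iff (c : ℕ) (L : List ℕ) : memL c L = true ↔ c ∈ L := by
  unfold memL
  rw [List.any_eq_true]
  constructor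
  · rintro ⟨x, hx, hcx⟩
    have : c = x := by simpa using hcx
    rw [this]
    exact hx
  · intro hc
    exact ⟨c, hc, by simp⟩

theorem card_le_of_code (S : Set P11) (L : List ℕ) (h : ∀ g ∈ S, code g ∈ L) :
    Nat.card S ≤ L.length := by
  classical
  have h1 : Nat.card S ≤ Nat.card ↥L.toFinset :=
    Nat.card_le_card_of_injective
      (fun g : S => (⟨code g.1, List.mem_toFinset.2 (h g.1 g.2)⟩ : ↥L.toFinset))
      (fun g g' hgg => by
        have h3 : code g.1 = code g'.1 := Subtype.mk.inj hgg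
        exact Subtype.ext (code_injective h3))
  have h2 : Nat.card ↥L.toFinset = L.toFinset.card := by
    rw [Nat.card_eq_fintype_card, Fintype.card_coe]
  rw [h2] at h1
  exact le_trans h1 (List.toFinset_card_le L)

end Cfsg.Agent.Lib.Helper56.D11
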