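import Mathlib
import Cfsg.Agent.Lib.Helper5.BQ0

/-!
# S0996 piece BQ-L5 `psum_avg` (project of helper5; proof by helper56)
-/

set_option autoImplicit false

namespace Cfsg.Agent.Lib.Helper5.BQ

open Cfsg
open Cfsg.Agent.Lib.Helper10.BR (psum)

/-- BQ-L5 -/
theorem psum_avg {G : Type*} [Group G] [Fintype G] (P : Subgroup G) (ψ : G → ℂ) :
    ∑ᶠ y : Subgroup.normalizer (P : Set G), psum P ψ (y : G) =
      (Nat.card P : ℂ) * psum (Subgroup.normalizer (P : Set G)) ψ 1 := by
  classical
  letI : Fintype P := Fintype.ofFinite _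
  letI : Fintype (Subgroup.normalizer (P : Set G)) := Fintype.ofFinite _
  rw [finsum_eq_sum_of_fintype]
  simp only [Cfsg.Agent.Lib.Helper10.BR.psum_eq_sum]
  rw [Finset.sum_comm]
  have h1 : ∀ u : P, ∑ y : Subgroup.normalizer (P : Set G), ψ ((y : G) * (u : G)) =
      ∑ y : Subgroup.normalizer (P : Set G), ψ ((1 : G) * (y : G)) := by
    intro u
    have hu : (u : G) ∈ Subgroup.normalizer (P : Set G) := Subgroup.le_normalizer u.2
    simp only [one_mul]
    exact Fintype.sum_equiv (Equiv.mulRight (⟨(u : G), hu⟩ : Subgroup.normalizer (P : Set G)))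
      _ _ (fun y => rfl)
  rw [Finset.sum_congr rfl (fun u _ => h1 u), Finset.sum_const, Finset.card_univ, nsmul_eq_mul,
    Nat.card_eq_fintype_card]

end Cfsg.Agent.Lib.Helper5.BQ
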