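import Mathlib
import Cfsg.Agent.Lib.Helper5.BQ0

/-!
# S0996 piece BQ-L6 `psum_const_of_eq` (project of helper5; proof by helper56)
-/

set_option autoImplicit false

namespace Cfsg.Agent.Lib.Helper5.BQ

open Cfsg
open Cfsg.Agent.Lib.Helper10.BR (psum)

/-- BQ-L6 -/
theorem psum_const_of_eq {G : Type*} [Group G] [Fintype G] (P : Subgroup G) (ψ : G → ℂ) (e : ℕ)
    (hidx : Nat.card (Subgroup.normalizer (P : Set G)) = e * Nat.card P)
    (havg : ∑ᶠ y : Subgroup.normalizer (P : Set G), psum P ψ (y : G) =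
      (Nat.card P : ℂ) * psum (Subgroup.normalizer (P : Set G)) ψ 1)
    (hb : ∀ y ∈ Subgroup.normalizer (P : Set G), ‖psum P ψ y‖ ≤ (psum P ψ 1).re)
    (heq : psum (Subgroup.normalizer (P : Set G)) ψ 1 = (e : ℂ) * psum P ψ 1) :
    ∀ y ∈ Subgroup.normalizer (P : Set G), psum P ψ y = psum P ψ 1 := by
  classical
  letI : Fintype (Subgroup.normalizer (P : Set G)) := Fintype.ofFinite _
  have key : ∀ z : ℂ, ∀ r : ℝ, ‖z‖ ≤ r → r ≤ z.re → z = (r : ℂ) := by
    intro z r h1 h2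
    have h3 : ‖z‖ ^ 2 = z.re ^ 2 + z.im ^ 2 := by
      rw [Complex.sq_norm, Complex.normSq_apply]; ring
    have h5 : z.re ≤ ‖z‖ := Complex.re_le_norm z
    have h6 : z.re = r := le_antisymm (h5.trans h1) h2
    have h7 : ‖z‖ = r := le_antisymm h1 (h2.trans h5)
    have h8 : z.im = 0 := by
      have h9 : z.im ^ 2 = 0 := by rw [h7, h6] at h3; linarith
      exact (pow_eq_zero_iff two_ne_zero).1 h9
    apply Complex.ext
    · simp [h6]
    · simp [h8]
  obtain ⟨r, hr⟩ : ∃ r : ℝ, r = (psum P ψ 1).re := ⟨_, rfl⟩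
  have h1mem : (1 : G) ∈ Subgroup.normalizer (P : Set G) := one_mem _
  have hz1 : psum P ψ 1 = (r : ℂ) := key _ r (by rw [hr]; exact hb 1 h1mem) hr.le
  rw [finsum_eq_sum_of_fintype, heq] at havg
  have hsum : ∑ y : Subgroup.normalizer (P : Set G), (psum P ψ (y : G)).re =
      ∑ _y : Subgroup.normalizer (P : Set G), r := by
    have h2 := congrArg Complex.re havg
    rw [Complex.re_sum] at h2
    rw [h2, Finset.sum_const, Finset.card_univ, nsmul_eq_mul, ← Nat.card_eq_fintype_card, hidx,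
      hz1]
    have h3 : (Nat.card P : ℂ) * ((e : ℂ) * (r : ℂ)) =
        (((Nat.card P : ℝ) * ((e : ℝ) * r) : ℝ) : ℂ) := by push_cast; ring
    rw [h3, Complex.ofReal_re]
    push_cast
    ring
  have hle : ∀ y ∈ (Finset.univ : Finset (Subgroup.normalizer (P : Set G))),
      (psum P ψ (y : G)).re ≤ r :=
    fun y _ => (Complex.re_le_norm _).trans (by rw [hr]; exact hb y y.2)
  have hall := (Finset.sum_eq_sum_iff_of_le hle).1 hsum
  intro y hy
  have h3 : (psum P ψ y).re = r := hall ⟨y, hy⟩ (Finset.mem_univ _)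
  rw [hz1]
  exact key _ r (by rw [hr]; exact hb y hy) h3.ge

end Cfsg.Agent.Lib.Helper5.BQ
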