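import Mathlib
import Cfsg.Agent.Lib.Helper5.BQ0
import Cfsg.Agent.Lib.Helper82.CharCore

/-!
# S0996 piece BQ-P2a `kA_zero` (project of helper5; proof by helper56)

Also general auxiliary lemmas on `psum H ψ 1` (namespace `P2aux`).
-/

set_option autoImplicit false
set_option linter.style.haveILetI false

namespace Cfsg.Agent.Lib.Helper5.BQ

open Cfsg
open Cfsg.Agent.Lib.Helper83 (trivIrr)
open Cfsg.Agent.Lib.Helper10.BR (psum)
open scoped ComplexConjugate

namespace P2aux

variable {G : Type*} [Group G] [Fintype G]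

/-- `psum H ψ 1` as a filtered sum over the group. -/
theorem psum_one_eq_filter (H : Subgroup G) [DecidablePred (· ∈ H)] (ψ : G → ℂ) :
    psum H ψ 1 = ∑ g ∈ Finset.univ.filter (· ∈ H), ψ g := by
  letI : Fintype H := Fintype.ofFinite _
  rw [Cfsg.Agent.Lib.Helper10.BR.psum_eq_sum]
  simp only [one_mul]
  exact (Finset.sum_subtype (p := (· ∈ H)) (Finset.univ.filter (· ∈ H)) (by simp)
    (fun t => ψ t)).symm

/-- The sum of an irreducible character over a subgroup is `|H|` times a natural number. -/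
theorem psum_nat (H : Subgroup G) (χ : IrrCharacter G) :
    ∃ m : ℕ, psum H (χ : G → ℂ) 1 = (Nat.card H : ℂ) * (m : ℂ) := by
  classical
  obtain ⟨m, hm⟩ := Cfsg.Agent.Lib.Helper82.irr_sum_subgroup_eq H χ
  refine ⟨m, ?_⟩
  rw [psum_one_eq_filter, Finset.sum_filter]
  exact hm

/-- The sum of the constant function `1` over a subgroup. -/
theorem psum_const_one (H : Subgroup G) : psum H (fun _ : G => (1 : ℂ)) 1 = (Nat.card H : ℂ) := by
  letI : Fintype H := Fintype.ofFinite _
  rw [Cfsg.Agent.Lib.Helper10.BR.psum_eq_sum]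
  simp [Nat.card_eq_fintype_card]

theorem psum_triv (H : Subgroup G) : psum H ((trivIrr G : IrrCharacter G) : G → ℂ) 1 =
    (Nat.card H : ℂ) :=
  psum_const_one H

/-- Splitting the sum over `N` into the sum over `P ≤ N` and the sum over `N \ P`. -/
theorem psum_split (P N : Subgroup G) (hPN : P ≤ N) [DecidablePred (· ∈ P)]
    [DecidablePred (· ∈ N)] (ψ : G → ℂ) :
    psum N ψ 1 = psum P ψ 1 + ∑ g ∈ Finset.univ.filter (fun g => g ∈ N ∧ g ∉ P), ψ g := by
  classical
  rw [psum_one_eq_filter, psum_one_eq_filter, ← Finset.sum_union]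
  · congr 1
    ext g
    simp only [Finset.mem_filter, Finset.mem_univ, true_and, Finset.mem_union]
    constructor
    · intro hg
      by_cases hgP : g ∈ P
      · exact Or.inl hgP
      · exact Or.inr ⟨hg, hgP⟩
    · rintro (hg | hg)
      · exact hPN hg
      · exact hg.1
  · rw [Finset.disjoint_filter]
    intro g _ h1 h2
    exact h2.2 h1

end P2aux

section T

variable {G : Type*} [Group G] [Fintype G] {p e t n : ℕ} {P : Subgroup G} {ε : ℤ} {x₀ : ℕ}
  {A B Y D : Finset (IrrCharacter G)}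

/-- BQ-P2a -/
theorem kA_zero (h : GTab G p e t n P ε x₀ A B Y D)
    (hpf : ∀ g : G, ∑ᶠ ψ : IrrCharacter G,
        conj (psum (Subgroup.normalizer (P : Set G)) (ψ : G → ℂ) 1) * (ψ : G → ℂ) g =
      (Nat.card {c : G // c⁻¹ * g * c ∈ Subgroup.normalizer (P : Set G)} : ℂ)) :
    ∀ χ ∈ A, psum (Subgroup.normalizer (P : Set G)) (χ : G → ℂ) 1 = 0 := by
  classical
  haveI : Finite (IrrCharacter G) := Cfsg.Agent.Lib.Helper82.finite_irrCharacter G
  letI : Fintype (IrrCharacter G) := Fintype.ofFinite _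
  choose k hk using fun ψ : IrrCharacter G =>
    P2aux.psum_nat (Subgroup.normalizer (P : Set G)) ψ
  have hcN : Nat.card (Subgroup.normalizer (P : Set G)) = e * p := h.cardN
  have hcN0 : 0 < e * p := by rw [← hcN]; exact Nat.card_pos
  have hd : ∀ ψ : IrrCharacter G, ((charDegree (ψ : G → ℂ) : ℕ) : ℂ) = (ψ : G → ℂ) 1 :=
    fun ψ => (Cfsg.Agent.Lib.Helper82.irr_charDegree ψ).1
  have h1 := hpf 1
  rw [finsum_eq_sum_of_fintype] at h1
  have hcardG : Nat.card {c : G // c⁻¹ * 1 * c ∈ Subgroup.normalizer (P : Set G)} =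
      Nat.card G :=
    Nat.card_congr (Equiv.subtypeUnivEquiv (fun c => by simp))
  rw [hcardG] at h1
  have hterm : ∀ ψ : IrrCharacter G,
      conj (psum (Subgroup.normalizer (P : Set G)) (ψ : G → ℂ) 1) * (ψ : G → ℂ) 1 =
        ((e * p * k ψ * charDegree (ψ : G → ℂ) : ℕ) : ℂ) := by
    intro ψ
    rw [hk ψ, hcN, ← hd ψ]
    simp
  rw [Finset.sum_congr rfl (fun ψ _ => hterm ψ), ← Nat.cast_sum] at h1
  have h2 : ∑ ψ : IrrCharacter G, e * p * k ψ * charDegree (ψ : G → ℂ) = Nat.card G :=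
    Nat.cast_injective h1
  -- the trivial character
  have hk1 : k (trivIrr G) = 1 := by
    have h3 := hk (trivIrr G)
    rw [P2aux.psum_triv] at h3
    have h4 : (Nat.card (Subgroup.normalizer (P : Set G)) : ℂ) ≠ 0 := by
      rw [hcN]; exact_mod_cast hcN0.ne'
    have h5 : ((k (trivIrr G) : ℕ) : ℂ) = 1 := by
      have h6 : (Nat.card (Subgroup.normalizer (P : Set G)) : ℂ) * 1 =
          (Nat.card (Subgroup.normalizer (P : Set G)) : ℂ) * (k (trivIrr G) : ℂ) := by
        rw [mul_one]; exact h3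
      exact (mul_left_cancel₀ h4 h6).symm
    exact_mod_cast h5
  have hd1 : charDegree ((trivIrr G : IrrCharacter G) : G → ℂ) = 1 := by
    have h3 := hd (trivIrr G)
    rw [Cfsg.Agent.Lib.Helper83.trivIrr_apply] at h3
    exact_mod_cast h3
  intro χ hχ
  have hne : trivIrr G ≠ χ := fun heq => h.triv_nmem.1 (heq ▸ hχ)
  have hdχ : charDegree (χ : G → ℂ) = 1 + n * p := by
    have h3 := hd χ
    rw [h.degA χ hχ] at h3
    exact_mod_cast h3
  have h3 : ∑ ψ ∈ ({trivIrr G, χ} : Finset (IrrCharacter G)),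
      e * p * k ψ * charDegree (ψ : G → ℂ) ≤
      ∑ ψ : IrrCharacter G, e * p * k ψ * charDegree (ψ : G → ℂ) :=
    Finset.sum_le_sum_of_subset (Finset.subset_univ _)
  rw [Finset.sum_pair hne, h2, hk1, hd1, hdχ, h.cardG] at h3
  have hk0 : k χ = 0 := by
    by_contra hk0
    have h4 : 1 ≤ k χ := Nat.one_le_iff_ne_zero.2 hk0
    have h5 : e * p * 1 * (1 + n * p) ≤ e * p * k χ * (1 + n * p) :=
      Nat.mul_le_mul_right _ (Nat.mul_le_mul_left _ h4)
    have h6 : (1 + n * p) * (e * p) = e * p * 1 * (1 + n * p) := by ring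
    rw [h6] at h3
    omega
  rw [hk χ, hk0]
  simp

end T

end Cfsg.Agent.Lib.Helper5.BQ
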