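import Mathlib
import Cfsg.Agent.Lib.Helper5.BQ0
import Cfsg.Agent.Lib.Helper5.BRL1
import Cfsg.Agent.Lib.Helper56.BQP2a

/-!
# S0996 piece BQ-P2c `kY_zero` (project of helper5; proof by helper56)
-/

set_option autoImplicit false
set_option linter.style.haveILetI false

namespace Cfsg.Agent.Lib.Helper5.BQ

open Cfsg
open Cfsg.Agent.Lib.Helper83 (trivIrr)
open Cfsg.Agent.Lib.Helper10.BR (psum)
open scoped ComplexConjugate

section T

variable {G : Type*} [Group G] [Fintype G] {p e t n : ℕ} {P : Subgroup G} {ε : ℤ} {x₀ : ℕ}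
  {A B Y D : Finset (IrrCharacter G)}

/-- BQ-P2c -/
theorem kY_zero (h : GTab G p e t n P ε x₀ A B Y D) (hnum : Num p e t n A.card ε x₀)
    (hlinA : ∀ χ ∈ A, psum P (χ : G → ℂ) 1 = (((n + 1) * p : ℕ) : ℂ))
    (hlinB : ∀ χ ∈ B, psum P (χ : G → ℂ) 1 = 0)
    (hlinY : ∑ θ ∈ Y, psum P (θ : G → ℂ) 1 = (t : ℂ) * (x₀ : ℂ) - ((p : ℂ) - 1) * (ε : ℂ))
    (havg : ∀ ψ : G → ℂ, ∑ᶠ y : Subgroup.normalizer (P : Set G), psum P ψ (y : G) =
      (Nat.card P : ℂ) * psum (Subgroup.normalizer (P : Set G)) ψ 1)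
    (hreg : ∀ y ∈ Subgroup.normalizer (P : Set G), y ∉ P → ¬ p ∣ orderOf y)
    (hA : ∀ χ ∈ A, psum (Subgroup.normalizer (P : Set G)) (χ : G → ℂ) 1 = 0)
    (hB : ∀ χ ∈ B, psum (Subgroup.normalizer (P : Set G)) (χ : G → ℂ) 1 = 0) :
    ∀ θ ∈ Y, psum (Subgroup.normalizer (P : Set G)) (θ : G → ℂ) 1 = 0 := by
  classical
  have hp0 : p ≠ 0 := h.hp.ne_zero
  have hp0' : (p : ℂ) ≠ 0 := Nat.cast_ne_zero.2 hp0
  have hp1 : 1 ≤ p := h.hp.one_lt.le
  have het : (e : ℂ) * (t : ℂ) = (p : ℂ) - 1 := by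
    have h1 := h.het
    rw [← Nat.cast_mul, h1, Nat.cast_sub hp1, Nat.cast_one]
  unfold Num at hnum
  rcases hnum with ⟨hε, hx, -⟩ | ⟨hε, k, hxk, hnk, hak⟩
  · -- case ε = 1
    choose l hl using fun ψ : IrrCharacter G => P2aux.psum_nat P ψ
    have hsum : ∑ θ ∈ Y, ((p * l θ : ℕ) : ℂ) = 0 := by
      have h1 : ∀ θ ∈ Y, ((p * l θ : ℕ) : ℂ) = psum P (θ : G → ℂ) 1 := by
        intro θ _
        rw [hl θ, h.cardP, Nat.cast_mul]
      rw [Finset.sum_congr rfl h1, hlinY, hε, hx]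
      push_cast
      linear_combination het
    rw [← Nat.cast_sum] at hsum
    have hsum' : ∑ θ ∈ Y, p * l θ = 0 := by exact_mod_cast hsum
    intro θ hθ
    have h2 : p * l θ = 0 := (Finset.sum_eq_zero_iff.1 hsum') θ hθ
    have h3 : psum P (θ : G → ℂ) 1 = 0 := by
      rw [hl θ, h.cardP, ← Nat.cast_mul, h2, Nat.cast_zero]
    have hchar : IsCharacter G (θ : G → ℂ) := by
      obtain ⟨m, ρ, -, hρ⟩ := θ.2
      exact ⟨m, ρ, hρ⟩
    have h4 : ∀ y : G, psum P (θ : G → ℂ) y = 0 :=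
      fun y => Cfsg.Agent.Lib.Helper10.BR.psum_zero P _ hchar h3 y
    have h5 := havg (θ : G → ℂ)
    simp only [h4, finsum_zero] at h5
    rw [h.cardP] at h5
    exact (mul_eq_zero.1 h5.symm).resolve_left hp0'
  · -- case ε = -1
    have hPN : P ≤ Subgroup.normalizer (P : Set G) := Subgroup.le_normalizer
    obtain ⟨F, hF⟩ : ∃ F : Finset G, F = Finset.univ.filter
        (fun g => g ∈ Subgroup.normalizer (P : Set G) ∧ g ∉ P) := ⟨_, rfl⟩
    have hsplit : ∀ ψ : G → ℂ, psum (Subgroup.normalizer (P : Set G)) ψ 1 =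
        psum P ψ 1 + ∑ g ∈ F, ψ g := by
      intro ψ
      rw [hF]
      exact P2aux.psum_split P _ hPN ψ
    have hFcard : ∑ _g ∈ F, (1 : ℂ) = (e : ℂ) * (p : ℂ) - (p : ℂ) := by
      have h1 := hsplit (fun _ => (1 : ℂ))
      rw [P2aux.psum_const_one, P2aux.psum_const_one, h.cardN, h.cardP] at h1
      push_cast at h1
      linear_combination -h1
    have hak' : (A.card : ℂ) * ((n : ℂ) + 1) + (k : ℂ) + 1 = (e : ℂ) := by exact_mod_cast hak
    have hxk' : (x₀ : ℂ) + (e : ℂ) = (k : ℂ) * (p : ℂ) := by exact_mod_cast hxk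
    have hkey : ∀ θ ∈ Y, psum P (θ : G → ℂ) 1 =
        psum (Subgroup.normalizer (P : Set G)) (θ : G → ℂ) 1 + (p : ℂ) * (k : ℂ) := by
      intro θ hθ
      have h1 : ∀ g ∈ F, (ε : ℂ) * (θ : G → ℂ) g =
          1 + ∑ χ ∈ A, (χ : G → ℂ) g - ∑ χ ∈ B, (χ : G → ℂ) g := by
        intro g hg
        rw [hF, Finset.mem_filter] at hg
        exact h.t1 θ hθ g (hreg g hg.2.1 hg.2.2)
      have hSA : ∑ g ∈ F, ∑ χ ∈ A, (χ : G → ℂ) g =
          -((A.card : ℂ) * (((n + 1) * p : ℕ) : ℂ)) := by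
        rw [Finset.sum_comm]
        have h3 : ∀ χ ∈ A, ∑ g ∈ F, (χ : G → ℂ) g = -(((n + 1) * p : ℕ) : ℂ) := by
          intro χ hχ
          have h4 := hsplit (χ : G → ℂ)
          rw [hA χ hχ, hlinA χ hχ] at h4
          linear_combination -h4
        rw [Finset.sum_congr rfl h3, Finset.sum_const, nsmul_eq_mul]
        ring
      have hSB : ∑ g ∈ F, ∑ χ ∈ B, (χ : G → ℂ) g = 0 := by
        rw [Finset.sum_comm]
        apply Finset.sum_eq_zero
        intro χ hχ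
        have h4 := hsplit (χ : G → ℂ)
        rw [hB χ hχ, hlinB χ hχ] at h4
        linear_combination -h4
      have hSθ := hsplit (θ : G → ℂ)
      have h2 : ∑ g ∈ F, (ε : ℂ) * (θ : G → ℂ) g =
          ∑ g ∈ F, (1 + ∑ χ ∈ A, (χ : G → ℂ) g - ∑ χ ∈ B, (χ : G → ℂ) g) :=
        Finset.sum_congr rfl h1
      rw [← Finset.mul_sum, Finset.sum_sub_distrib, Finset.sum_add_distrib, hFcard, hSA, hSB,
        hε] at h2
      push_cast at h2
      linear_combination (-1 : ℂ) * hSθ + h2 - (p : ℂ) * hak'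
    choose kk hkk using fun ψ : IrrCharacter G =>
      P2aux.psum_nat (Subgroup.normalizer (P : Set G)) ψ
    have hsumK : ∑ θ ∈ Y, psum (Subgroup.normalizer (P : Set G)) (θ : G → ℂ) 1 = 0 := by
      have h1 : ∑ θ ∈ Y, psum P (θ : G → ℂ) 1 =
          ∑ θ ∈ Y, (psum (Subgroup.normalizer (P : Set G)) (θ : G → ℂ) 1 +
            (p : ℂ) * (k : ℂ)) := Finset.sum_congr rfl hkey
      rw [hlinY, Finset.sum_add_distrib, Finset.sum_const, h.cardY, nsmul_eq_mul, hε] at h1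
      push_cast at h1
      linear_combination -h1 + (t : ℂ) * hxk' - het
    have hsumK' : ∑ θ ∈ Y, e * p * kk θ = 0 := by
      have h1 : ∀ θ ∈ Y, psum (Subgroup.normalizer (P : Set G)) (θ : G → ℂ) 1 =
          ((e * p * kk θ : ℕ) : ℂ) := by
        intro θ _
        rw [hkk θ, h.cardN]
        push_cast
        ring
      rw [Finset.sum_congr rfl h1, ← Nat.cast_sum] at hsumK
      exact_mod_cast hsumK
    intro θ hθ
    have h2 : e * p * kk θ = 0 := (Finset.sum_eq_zero_iff.1 hsumK') θ hθ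
    rw [hkk θ, h.cardN, ← Nat.cast_mul, h2, Nat.cast_zero]

end T

end Cfsg.Agent.Lib.Helper5.BQ
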