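import Mathlib
import Cfsg.Agent.Lib.Helper5.BQ0
import Cfsg.Agent.Lib.Helper83.Ortho
import Cfsg.Agent.Lib.Helper82.CharCore

/-!
# S0996 piece BQ-PF `perm_formula` (project of helper5; proof by helper56)
-/

set_option autoImplicit false
set_option linter.style.haveILetI false

namespace Cfsg.Agent.Lib.Helper5.BQ

open Cfsg
open Cfsg.Agent.Lib.Helper10.BR (psum)
open scoped ComplexConjugate

namespace PFaux

open scoped Classical in
theorem card_fiber {G : Type*} [Group G] [Finite G] (g u : G) :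
    Nat.card {c : G // c⁻¹ * g * c = u} =
      if IsConj u g then Nat.card (Subgroup.centralizer ({u} : Set G)) else 0 := by
  split_ifs with hc
  · obtain ⟨c₀, hc₀⟩ := isConj_iff.1 hc
    refine Nat.card_congr
      { toFun := fun c => ⟨c₀⁻¹ * (c : G), ?_⟩
        invFun := fun z => ⟨c₀ * (z : G), ?_⟩
        left_inv := fun c => Subtype.ext (by simp)
        right_inv := fun z => Subtype.ext (by simp) }
    · obtain ⟨c, hc'⟩ := c
      rw [Subgroup.mem_centralizer_iff]
      intro h hh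
      rw [Set.mem_singleton_iff] at hh
      rw [hh]
      rw [← hc₀] at hc'
      calc u * (c₀⁻¹ * c)
          = c₀⁻¹ * c * (c⁻¹ * (c₀ * u * c₀⁻¹) * c) := by group
        _ = c₀⁻¹ * c * u := by rw [hc']
    · have h1 := (Subgroup.mem_centralizer_iff.1 z.2) u (Set.mem_singleton u)
      rw [← hc₀]
      calc (c₀ * (z : G))⁻¹ * (c₀ * u * c₀⁻¹) * (c₀ * (z : G))
          = (z : G)⁻¹ * (u * (z : G)) := by group
        _ = u := by rw [h1]; group
  · haveI : IsEmpty {c : G // c⁻¹ * g * c = u} := by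
      refine ⟨fun c => hc ?_⟩
      obtain ⟨c, hc'⟩ := c
      rw [isConj_iff]
      exact ⟨c, by rw [← hc']; group⟩
    exact Nat.card_of_isEmpty

end PFaux

/-- BQ-PF -/
theorem perm_formula {G : Type*} [Group G] [Fintype G] (H : Subgroup G) (g : G) :
    ∑ᶠ ψ : IrrCharacter G, conj (psum H (ψ : G → ℂ) 1) * (ψ : G → ℂ) g =
      (Nat.card {c : G // c⁻¹ * g * c ∈ H} : ℂ) := by
  classical
  haveI : Finite (IrrCharacter G) := Cfsg.Agent.Lib.Helper82.finite_irrCharacter G
  letI : Fintype (IrrCharacter G) := Fintype.ofFinite _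
  letI : Fintype H := Fintype.ofFinite _
  rw [finsum_eq_sum_of_fintype]
  have h1 : ∀ ψ : IrrCharacter G, conj (psum H (ψ : G → ℂ) 1) * (ψ : G → ℂ) g =
      ∑ u : H, (ψ : G → ℂ) g * conj ((ψ : G → ℂ) (u : G)) := by
    intro ψ
    rw [Cfsg.Agent.Lib.Helper10.BR.psum_eq_sum, map_sum, Finset.sum_mul]
    refine Finset.sum_congr rfl (fun u _ => ?_)
    rw [one_mul, mul_comm]
  rw [Finset.sum_congr rfl (fun ψ _ => h1 ψ), Finset.sum_comm]
  have h2 : ∀ u : H, ∑ ψ : IrrCharacter G, (ψ : G → ℂ) g * conj ((ψ : G → ℂ) (u : G)) =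
      ((Nat.card {c : G // c⁻¹ * g * c = (u : G)} : ℕ) : ℂ) := by
    intro u
    rw [Cfsg.Agent.Lib.Helper83.column_orthogonality, PFaux.card_fiber]
    split_ifs <;> simp
  rw [Finset.sum_congr rfl (fun u _ => h2 u), ← Nat.cast_sum]
  congr 1
  rw [← Nat.card_sigma]
  exact Nat.card_congr
    { toFun := fun x => ⟨x.2.1, by rw [x.2.2]; exact x.1.2⟩
      invFun := fun c => ⟨⟨(c : G)⁻¹ * g * c, c.2⟩, ⟨c, rfl⟩⟩
      left_inv := by
        rintro ⟨⟨u, hu⟩, ⟨c, hc⟩⟩
        dsimp only at hc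
        subst hc
        rfl
      right_inv := fun c => rfl }

end Cfsg.Agent.Lib.Helper5.BQ
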