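import Mathlib
import Cfsg.Agent.Lib.Helper5.BQ0
import Cfsg.Agent.Lib.Helper82.CharCore

/-!
# S0996 piece BQ-PP `sum_pairs` (project of helper5; proof by helper56)
-/

set_option autoImplicit false
set_option linter.style.haveILetI false

namespace Cfsg.Agent.Lib.Helper5.BQ

open Cfsg
open Cfsg.Agent.Lib.Helper10.BR (psum)
open scoped ComplexConjugate

/-- BQ-PP -/
theorem sum_pairs {G : Type*} [Group G] [Fintype G] (H : Subgroup G)
    (hpf : ∀ g : G, ∑ᶠ ψ : IrrCharacter G, conj (psum H (ψ : G → ℂ) 1) * (ψ : G → ℂ) g =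
      (Nat.card {c : G // c⁻¹ * g * c ∈ H} : ℂ)) :
    ∑ᶠ ψ : IrrCharacter G, conj (psum H (ψ : G → ℂ) 1) * psum H (ψ : G → ℂ) 1 =
      (Nat.card {q : G × G // q.1 ∈ H ∧ q.2⁻¹ * q.1 * q.2 ∈ H} : ℂ) := by
  classical
  haveI : Finite (IrrCharacter G) := Cfsg.Agent.Lib.Helper82.finite_irrCharacter G
  letI : Fintype (IrrCharacter G) := Fintype.ofFinite _
  letI : Fintype H := Fintype.ofFinite _
  simp only [finsum_eq_sum_of_fintype] at hpf ⊢
  have hK : ∀ ψ : G → ℂ, psum H ψ 1 = ∑ u : H, ψ (u : G) := by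
    intro ψ
    rw [Cfsg.Agent.Lib.Helper10.BR.psum_eq_sum]
    simp
  have h1 : ∀ ψ : IrrCharacter G, conj (psum H (ψ : G → ℂ) 1) * psum H (ψ : G → ℂ) 1 =
      ∑ u : H, conj (psum H (ψ : G → ℂ) 1) * (ψ : G → ℂ) (u : G) := by
    intro ψ
    rw [← Finset.mul_sum, ← hK]
  rw [Finset.sum_congr rfl (fun ψ _ => h1 ψ), Finset.sum_comm,
    Finset.sum_congr rfl (fun (u : H) _ => hpf (u : G)), ← Nat.cast_sum]
  congr 1
  rw [← Nat.card_sigma]
  exact Nat.card_congr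
    { toFun := fun x => ⟨(x.1.1, x.2.1), ⟨x.1.2, x.2.2⟩⟩
      invFun := fun q => ⟨⟨q.1.1, q.2.1⟩, ⟨q.1.2, q.2.2⟩⟩
      left_inv := fun _ => rfl
      right_inv := fun _ => rfl }

end Cfsg.Agent.Lib.Helper5.BQ
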