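import Mathlib
import Cfsg.Agent.Lib.Helper5.BQ0

/-!
# S0996 piece BQ-T4 `glin_vals` (project of helper5; adapted from helper78's BRII1 by helper56)
-/

set_option autoImplicit false

namespace Cfsg.Agent.Lib.Helper5.BQ

open Cfsg
open Cfsg.Agent.Lib.Helper83 (trivIrr)
open Cfsg.Agent.Lib.Helper10.BR (psum)
open scoped ComplexConjugate

section T

variable {G : Type*} [Group G] [Fintype G] {p e t n : ℕ} {P : Subgroup G} {ε : ℤ} {x₀ : ℕ}
  {A B Y D : Finset (IrrCharacter G)}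

namespace T4aux

omit [Fintype G] in
theorem lin_aux (P : Subgroup G) [Fintype P] [DecidableEq P] (ψ : G → ℂ) :
    psum P ψ 1 = ψ 1 + ∑ u ∈ (Finset.univ : Finset P).erase 1, ψ (u : G) := by
  rw [Cfsg.Agent.Lib.Helper10.BR.psum_eq_sum,
    ← Finset.add_sum_erase _ _ (Finset.mem_univ (1 : P))]
  simp only [one_mul, Subgroup.coe_one]

theorem lin_const (hcard : Nat.card P = p) (ψ : G → ℂ) (c : ℂ)
    (hc : ∀ x ∈ P, x ≠ 1 → ψ x = c) : psum P ψ 1 = ψ 1 + ((p - 1 : ℕ) : ℂ) * c := by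
  classical
  let _ : Fintype P := Fintype.ofFinite P
  rw [lin_aux]
  congr 1
  have h5 : ∀ u ∈ (Finset.univ : Finset P).erase 1, ψ (u : G) = c := by
    intro u hu
    exact hc u u.2 (fun h1 => (Finset.ne_of_mem_erase hu) (OneMemClass.coe_eq_one.mp h1))
  rw [Finset.sum_congr rfl h5]
  rw [Finset.sum_const, Finset.card_erase_of_mem (Finset.mem_univ _), Finset.card_univ,
    ← Nat.card_eq_fintype_card, hcard, nsmul_eq_mul]

end T4aux

/-- BQ-T4 -/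
theorem glin_vals (h : GTab G p e t n P ε x₀ A B Y D)
    (hF1 : ∀ x ∈ P, x ≠ 1 → ∑ θ ∈ Y, (θ : G → ℂ) x = -(ε : ℂ)) :
    (∀ χ ∈ A, psum P (χ : G → ℂ) 1 = (((n + 1) * p : ℕ) : ℂ)) ∧
    (∀ χ ∈ B, psum P (χ : G → ℂ) 1 = 0) ∧
    (∑ θ ∈ Y, psum P (θ : G → ℂ) 1 = (t : ℂ) * (x₀ : ℂ) - ((p : ℂ) - 1) * (ε : ℂ)) ∧
    (∀ ψ ∈ D, psum P (ψ : G → ℂ) 1 = (ψ : G → ℂ) 1) := by
  classical
  have hp1 : 1 ≤ p := h.hp.one_lt.le
  refine ⟨?_, ?_, ?_, ?_⟩
  · intro χ hχ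
    have hnat : (1 + n * p) + (p - 1) = (n + 1) * p := by
      have h3 : (n + 1) * p = n * p + p := by ring
      omega
    rw [T4aux.lin_const h.cardP _ 1 (h.valA χ hχ), h.degA χ hχ, mul_one, ← Nat.cast_add, hnat]
  · intro χ hχ
    rw [T4aux.lin_const h.cardP _ (-1) (h.valB χ hχ), h.degB χ hχ]
    ring
  · let _ : Fintype P := Fintype.ofFinite P
    have h4 : ∀ θ ∈ Y, psum P (θ : G → ℂ) 1 =
        (x₀ : ℂ) + ∑ u ∈ (Finset.univ : Finset P).erase 1, (θ : G → ℂ) (u : G) :=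
      fun θ hθ => by rw [T4aux.lin_aux, h.degY θ hθ]
    rw [Finset.sum_congr rfl h4, Finset.sum_add_distrib, Finset.sum_const, h.cardY,
      Finset.sum_comm]
    have h5 : ∀ u ∈ (Finset.univ : Finset P).erase 1,
        ∑ θ ∈ Y, (θ : G → ℂ) (u : G) = -(ε : ℂ) := by
      intro u hu
      exact hF1 u u.2 (fun h1 => (Finset.ne_of_mem_erase hu) (OneMemClass.coe_eq_one.mp h1))
    rw [Finset.sum_congr rfl h5]
    rw [Finset.sum_const, Finset.card_erase_of_mem (Finset.mem_univ _), Finset.card_univ,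
      ← Nat.card_eq_fintype_card, h.cardP, nsmul_eq_mul, nsmul_eq_mul, Nat.cast_sub hp1,
      Nat.cast_one]
    ring
  · intro ψ hψ
    rw [T4aux.lin_const h.cardP _ 0 (h.valD ψ hψ), mul_zero, add_zero]

end T

end Cfsg.Agent.Lib.Helper5.BQ
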