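import Cfsg.Agent.Lib.Helper59.CL1

set_option autoImplicit false

namespace Cfsg.Agent.Lib.Helper59.CL

variable {U : Type*} [AddCommGroup U] [Module (ZMod 2) U]

/-- Piece BETA of S3084: a quadratic form over `ZMod 2` with nondegenerate polar form is the
diagonal of a bilinear form whose symmetrisation is nondegenerate. -/
theorem exists_beta [Module.Finite (ZMod 2) U] (q : QuadraticForm (ZMod 2) U)
    (hnd : (QuadraticMap.polarBilin q).Nondegenerate) :
    ∃ β : U →ₗ[ZMod 2] U →ₗ[ZMod 2] ZMod 2, (∀ u, β u u = q u) ∧ Nondeg β := by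
  obtain ⟨β, hβ⟩ :=
    LinearMap.BilinMap.toQuadraticMap_surjective (R := ZMod 2) (M := U) (N := ZMod 2) q
  have h1 : ∀ u, β u u = q u := fun u => by
    rw [← hβ, LinearMap.BilinMap.toQuadraticMap_apply]
  refine ⟨β, h1, ?_⟩
  intro w hw
  apply hnd.2 w
  intro u
  rw [QuadraticMap.polarBilin_apply_apply, QuadraticMap.polar, ← h1, ← h1, ← h1]
  have h2 := hw u
  simp only [map_add, LinearMap.add_apply]
  linear_combination h2

end Cfsg.Agent.Lib.Helper59.CL
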