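import Mathlib
import Cfsg.Prelude.Def_GeometricClasses
import Cfsg.Prelude.Def_ClassicalGeometry
import Cfsg.Agent.Lib.Helper98.F75Defs

/-! S5975 project (helper98), piece F75-SEMI: `fix_bound_of_semilinear`. -/

set_option autoImplicit false

universe u

namespace Cfsg.Agent.Lib.Helper98.F75

open Matrix Polynomial

/-- key step: `F`-independent vectors of the `μ`-eigenspace of a `τ`-semilinear `y` are
independent over `L` -/
theorem f75semi_key {F : Type*} [Field F] {ι : Type} [Fintype ι] [DecidableEq ι]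
    {L : Type*} [Field L] [Algebra F L] (ρ : L →ₐ[F] Matrix ι ι F)
    (τ : L ≃ₐ[F] L) (hfix : ∀ c : L, τ c = c → ∃ a : F, c = algebraMap F L a)
    (y : Matrix ι ι F) (hτ : ∀ c : L, y * ρ c = ρ (τ c) * y) (μ : F) (hμ : μ ≠ 0)
    {κ : Type*} [DecidableEq κ] (v : κ → ι → F) (hv : ∀ j, y *ᵥ v j = μ • v j)
    (hli : LinearIndependent F v) :
    ∀ (n : ℕ) (s : Finset κ) (b : κ → L), s.card = n → ∑ j ∈ s, ρ (b j) *ᵥ v j = 0 →
      ∀ j ∈ s, b j = 0 := by
  intro n
  induction n using Nat.strong_induction_on with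
  | _ n ih =>
    intro s b hs hrel
    by_contra hne
    push Not at hne
    obtain ⟨j0, hj0, hb0⟩ := hne
    set c : κ → L := fun j => (b j0)⁻¹ * b j with hc
    have hc0 : c j0 = 1 := inv_mul_cancel₀ hb0
    have hrelc : ∑ j ∈ s, ρ (c j) *ᵥ v j = 0 := by
      have h1 : ∑ j ∈ s, ρ (c j) *ᵥ v j = ρ ((b j0)⁻¹) *ᵥ (∑ j ∈ s, ρ (b j) *ᵥ v j) := by
        rw [Matrix.mulVec_sum]
        refine Finset.sum_congr rfl (fun j _ => ?_)
        rw [Matrix.mulVec_mulVec, ← map_mul]
      rw [h1, hrel, Matrix.mulVec_zero]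
    have hy : ∑ j ∈ s, ρ (τ (c j)) *ᵥ v j = 0 := by
      have h1 : y *ᵥ (∑ j ∈ s, ρ (c j) *ᵥ v j) = μ • ∑ j ∈ s, ρ (τ (c j)) *ᵥ v j := by
        rw [Matrix.mulVec_sum, Finset.smul_sum]
        refine Finset.sum_congr rfl (fun j _ => ?_)
        rw [Matrix.mulVec_mulVec, hτ, ← Matrix.mulVec_mulVec, hv, Matrix.mulVec_smul]
      rw [hrelc, Matrix.mulVec_zero] at h1
      exact (smul_eq_zero.1 h1.symm).resolve_left hμ
    have hsub : ∑ j ∈ s.erase j0, ρ (τ (c j) - c j) *ᵥ v j = 0 := by
      have h2 : ∑ j ∈ s, ρ (τ (c j) - c j) *ᵥ v j = 0 := by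
        simp only [map_sub, Matrix.sub_mulVec, Finset.sum_sub_distrib, hy, hrelc, sub_zero]
      rw [← Finset.add_sum_erase s _ hj0] at h2
      rw [hc0, map_one τ, sub_self, map_zero, Matrix.zero_mulVec, zero_add] at h2
      exact h2
    have hcard : (s.erase j0).card < n := by
      rw [Finset.card_erase_of_mem hj0, hs]
      have := Finset.card_pos.2 ⟨j0, hj0⟩
      omega
    have hfixed : ∀ j ∈ s, τ (c j) = c j := by
      intro j hj
      by_cases hjj : j = j0
      · rw [hjj, hc0, map_one]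
      · have h3 := ih _ hcard (s.erase j0) (fun j => τ (c j) - c j) rfl hsub j
          (Finset.mem_erase.2 ⟨hjj, hj⟩)
        exact sub_eq_zero.1 h3
    choose! a ha using fun j (hj : j ∈ s) => hfix (c j) (hfixed j hj)
    have hrelF : ∑ j ∈ s, a j • v j = 0 := by
      rw [← hrelc]
      refine Finset.sum_congr rfl (fun j hj => ?_)
      rw [ha j hj, AlgHom.commutes, Algebra.algebraMap_eq_smul_one, Matrix.smul_mulVec,
        Matrix.one_mulVec]
    have ha0 : a j0 = 0 := (linearIndependent_iff'.1 hli) s a hrelF j0 hj0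
    have h4 : (1 : L) = 0 := by rw [← hc0, ha j0 hj0, ha0, map_zero]
    exact one_ne_zero h4

theorem fix_bound_of_semilinear {F : Type*} [Field F] {ι : Type} [Fintype ι] [DecidableEq ι]
    {L : Type*} [Field L] [Algebra F L] (ρ : L →ₐ[F] Matrix ι ι F)
    (τ : L ≃ₐ[F] L) (hfix : ∀ c : L, τ c = c → ∃ a : F, c = algebraMap F L a)
    (y : Matrix ι ι F) (hτ : ∀ c : L, y * ρ c = ρ (τ c) * y) (μ : F) (hμ : μ ≠ 0) :
    Module.finrank F L * (Fintype.card ι - (y - μ • (1 : Matrix ι ι F)).rank) ≤ Fintype.card ι := by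
  classical
  by_cases hfin : Module.Finite F L
  swap
  · rw [Module.finrank_of_not_finite hfin, zero_mul]
    exact Nat.zero_le _
  set T : (ι → F) →ₗ[F] (ι → F) := (y - μ • (1 : Matrix ι ι F)).mulVecLin with hT
  set N : Submodule F (ι → F) := LinearMap.ker T with hN
  have hrank : Module.finrank F N = Fintype.card ι - (y - μ • (1 : Matrix ι ι F)).rank := by
    have h1 := LinearMap.finrank_range_add_finrank_ker T
    rw [Module.finrank_fintype_fun_eq_card] at h1
    have h2 : (y - μ • (1 : Matrix ι ι F)).rank = Module.finrank F (LinearMap.range T) := rfl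
    rw [h2, ← h1, Nat.add_sub_cancel_left]
  rw [← hrank]
  set m := Module.finrank F N with hm
  let bN := Module.finBasis F N
  have hv : ∀ j, y *ᵥ ((bN j : N) : ι → F) = μ • ((bN j : N) : ι → F) := by
    intro j
    have h1 : T ((bN j : N) : ι → F) = 0 := LinearMap.mem_ker.1 (bN j).2
    rw [hT, Matrix.mulVecLin_apply, Matrix.sub_mulVec, Matrix.smul_mulVec, Matrix.one_mulVec,
      sub_eq_zero] at h1
    exact h1
  have hli : LinearIndependent F (fun j => ((bN j : N) : ι → F)) :=
    LinearIndependent.map' bN.linearIndependent N.subtype (Submodule.ker_subtype N)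
  let Φ : (Fin m → L) →ₗ[F] (ι → F) :=
    { toFun := fun b => ∑ j, ρ (b j) *ᵥ ((bN j : N) : ι → F)
      map_add' := by
        intro b b'
        simp only [Pi.add_apply, map_add, Matrix.add_mulVec, Finset.sum_add_distrib]
      map_smul' := by
        intro a b
        simp only [Pi.smul_apply, map_smul, Matrix.smul_mulVec, Finset.smul_sum,
          RingHom.id_apply] }
  have hinj : Function.Injective Φ := by
    rw [injective_iff_map_eq_zero]
    intro b hb
    funext j
    exact f75semi_key ρ τ hfix y hτ μ hμ (fun j => ((bN j : N) : ι → F)) hv hli _ Finset.univ b rfl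
      hb j (Finset.mem_univ j)
  have h5 := LinearMap.finrank_le_finrank_of_injective hinj
  rw [Module.finrank_pi_fintype, Module.finrank_fintype_fun_eq_card] at h5
  simp only [Finset.sum_const, Finset.card_univ, Fintype.card_fin, smul_eq_mul] at h5
  rw [mul_comm]
  exact h5

end Cfsg.Agent.Lib.Helper98.F75
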