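import Mathlib
import Cfsg.Agent.Lib.Helper58.JEDefs
import Cfsg.Agent.Lib.Helper82.JcOCPC
import Cfsg.Agent.Lib.Helper94.JcTH

/-!
# Project JE (S2948, helper58), piece FAPP

The hypotheses of `FoursStmt` hold for `U := omegaCenterOf (KOf Q y ⊓ Q)`.
-/

set_option autoImplicit false

namespace Cfsg.Agent.Lib.Helper56.JE

open Cfsg.Agent.Lib.Helper58.JE Cfsg.Agent.Lib.Helper72.JL Cfsg.Agent.Lib.Helper72.SC
  Cfsg.Agent.Lib.Helper78.Jc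

universe u

theorem fapp : FAppStmt.{u} := by
  intro G _ _ T L Q C V D A b y W₁ hD hY hY2 hK1 hW1 hFours u hu
  obtain ⟨hyD, hyC, hy3, hby⟩ := hY
  obtain ⟨hKL, hyK, -, hJK, hQK, -, -⟩ := hK1
  obtain ⟨hW1U, hW1card, hW1y, hW1fpf, hW1A⟩ := hW1
  have hAJ : A ≤ Cfsg.thompsonSubgroupOf 2 T := Cfsg.Agent.Lib.Helper94.Jc.th_le T A hD.hA
  have hJT : Cfsg.thompsonSubgroupOf 2 T ≤ T := Cfsg.Agent.Lib.Helper94.Jc.th_le_self T
  have hyL : y ∈ L := hD.hDL hyD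
  have hyNK : y ∈ Subgroup.normalizer (KOf Q y : Set G) := Subgroup.le_normalizer hyK
  have hyNQ : y ∈ Subgroup.normalizer (Q : Set G) := hD.hQn hyL
  have hinf : ∀ g : G, g ∈ Subgroup.normalizer (KOf Q y : Set G) →
      g ∈ Subgroup.normalizer (Q : Set G) →
      g ∈ Subgroup.normalizer ((KOf Q y ⊓ Q : Subgroup G) : Set G) := by
    intro g hgK hgQ
    rw [Subgroup.mem_normalizer_iff]
    intro x
    rw [Subgroup.mem_inf, Subgroup.mem_inf]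
    exact and_congr (Subgroup.mem_normalizer_iff.1 hgK x) (Subgroup.mem_normalizer_iff.1 hgQ x)
  have hU : ∀ g : G, g ∈ Subgroup.normalizer (KOf Q y : Set G) →
      g ∈ Subgroup.normalizer (Q : Set G) →
      ∀ u ∈ Cfsg.omegaCenterOf (KOf Q y ⊓ Q),
        g * u * g⁻¹ ∈ Cfsg.omegaCenterOf (KOf Q y ⊓ Q) := by
    intro g hgK hgQ u hu
    exact (Subgroup.mem_normalizer_iff.1
      (Cfsg.Agent.Lib.Helper82.Jc.oc_normalizer _ (hinf g hgK hgQ)) u).1 hu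
  have hAK : ∀ a ∈ A, a ∈ Subgroup.normalizer (KOf Q y : Set G) := fun a ha => hJK (hAJ ha)
  have hAQ : ∀ a ∈ A, a ∈ Subgroup.normalizer (Q : Set G) :=
    fun a ha => hD.hQn (hD.hTL (hJT (hAJ ha)))
  refine hFours G T A (Cfsg.omegaCenterOf (KOf Q y ⊓ Q)) W₁ y b hD.hA hD.hbA ?_ ?_ ?_ hy3 ?_ ?_
    hby ?_ hW1U hW1card hW1y hW1fpf hW1A u hu
  · exact (Cfsg.Agent.Lib.Helper82.Jc.oc_le _).trans (inf_le_right.trans hD.hQT)
  · intro u hu v hv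
    exact Cfsg.Agent.Lib.Helper82.Jc.oc_comm _ u hu v (Cfsg.Agent.Lib.Helper82.Jc.oc_le _ hv)
  · intro u hu
    exact Cfsg.Agent.Lib.Helper82.Jc.oc_sq _ u hu
  · intro u hu
    exact hU y hyNK hyNQ u hu
  · intro a ha u hu
    exact hU a (hAK a ha) (hAQ a ha) u hu
  · intro a ha
    have haT : a ∈ T := hJT (hAJ ha)
    have haD : a ∈ Subgroup.normalizer (D : Set G) := hD.hDJ (hAJ ha)
    have hayK : a * y * a⁻¹ ∈ KOf Q y := (Subgroup.mem_normalizer_iff.1 (hAK a ha) y).1 hyK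
    rcases hY2 a haT haD with hq | hq
    · left
      intro u hu
      have hqK : a * y * a⁻¹ * y⁻¹ ∈ KOf Q y ⊓ Q :=
        ⟨(KOf Q y).mul_mem hayK ((KOf Q y).inv_mem hyK), hq⟩
      have hyu := hU y hyNK hyNQ u hu
      have hc := Cfsg.Agent.Lib.Helper82.Jc.oc_comm _ _ hyu _ hqK
      calc a * y * a⁻¹ * u * (a * y * a⁻¹)⁻¹
          = (a * y * a⁻¹ * y⁻¹) * (y * u * y⁻¹) * (a * y * a⁻¹ * y⁻¹)⁻¹ := by group
        _ = (y * u * y⁻¹) * (a * y * a⁻¹ * y⁻¹) * (a * y * a⁻¹ * y⁻¹)⁻¹ := by rw [hc]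
        _ = y * u * y⁻¹ := by group
    · right
      intro u hu
      have hqK : a * y * a⁻¹ * y ∈ KOf Q y ⊓ Q := ⟨(KOf Q y).mul_mem hayK hyK, hq⟩
      have hyu : y⁻¹ * u * y ∈ Cfsg.omegaCenterOf (KOf Q y ⊓ Q) := by
        have := hU y⁻¹ (inv_mem hyNK) (inv_mem hyNQ) u hu
        rwa [inv_inv] at this
      have hc := Cfsg.Agent.Lib.Helper82.Jc.oc_comm _ _ hyu _ hqK
      calc a * y * a⁻¹ * u * (a * y * a⁻¹)⁻¹
          = (a * y * a⁻¹ * y) * (y⁻¹ * u * y) * (a * y * a⁻¹ * y)⁻¹ := by group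
        _ = (y⁻¹ * u * y) * (a * y * a⁻¹ * y) * (a * y * a⁻¹ * y)⁻¹ := by rw [hc]
        _ = y⁻¹ * u * y := by group

end Cfsg.Agent.Lib.Helper56.JE
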