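import Mathlib
import Cfsg.Agent.Lib.Helper78.JNDefs

/-!
# Project JN (S2944, helper78): piece KNORM

`K` generated by elements of odd order and normalized by the normal 2-group `Q`:
if `x y x⁻¹ ∈ K ⊔ Q` then `x K x⁻¹ ≤ K`.
-/

set_option autoImplicit false

namespace Cfsg.Agent.Lib.Helper56.JN

open Cfsg.Agent.Lib.Helper78.JN Cfsg.Agent.Lib.Helper72.JL Cfsg.Agent.Lib.Helper72.SC
  Cfsg.Agent.Lib.Helper78.Jc

open scoped commutatorElement

universe u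

theorem knorm : KnormStmt.{u} := by
  intro X _ _ Q K O hQn hQ2 hQK hgen hOQ y hy hK x hx k hk
  classical
  -- powers of `k₀ * q`
  have hpow : ∀ (k₀ q : X), k₀ ∈ K → q ∈ Q → ∀ n : ℕ, ∃ k₁ ∈ K, (k₀ * q) ^ n = k₁ * q ^ n := by
    intro k₀ q hk₀ hq n
    induction n with
    | zero => exact ⟨1, K.one_mem, by simp⟩
    | succ n ih =>
      obtain ⟨k₁, hk₁, h1⟩ := ih
      have hqn : q ^ n ∈ Q := Q.pow_mem hq n
      have hconj : q ^ n * k₀ * (q ^ n)⁻¹ ∈ K :=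
        (Subgroup.mem_normalizer_iff.mp (hQK hqn) k₀).mp hk₀
      refine ⟨k₁ * (q ^ n * k₀ * (q ^ n)⁻¹), K.mul_mem hk₁ hconj, ?_⟩
      rw [pow_succ, h1, pow_succ]
      group
  -- elements of odd order of `K ⊔ Q` lie in `K`
  have hodd : ∀ g : X, g ∈ K ⊔ Q → Odd (orderOf g) → g ∈ K := by
    intro g hg hgo
    have hmem : g ∈ (↑(K ⊔ Q) : Set X) := hg
    rw [Subgroup.mul_normal K Q] at hmem
    obtain ⟨k₀, hk₀, q, hq, rfl⟩ := Set.mem_mul.mp hmem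
    obtain ⟨k₁, hk₁, h1⟩ := hpow k₀ q hk₀ hq (orderOf (k₀ * q))
    rw [pow_orderOf_eq_one] at h1
    have hqm : q ^ orderOf (k₀ * q) ∈ K := by
      have h2 : q ^ orderOf (k₀ * q) = k₁⁻¹ := eq_inv_of_mul_eq_one_right h1.symm
      rw [h2]
      exact K.inv_mem hk₁
    obtain ⟨r, hr⟩ := (IsPGroup.iff_orderOf.mp hQ2) ⟨q, hq⟩
    have hoq : orderOf q = 2 ^ r := by rw [← hr, Subgroup.orderOf_mk]
    have hcop : (orderOf (k₀ * q)).Coprime (orderOf q) := by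
      rw [hoq]
      exact (Nat.coprime_two_right.mpr hgo).pow_right r
    obtain ⟨a, ha⟩ := exists_pow_eq_self_of_coprime hcop
    have hqK : q ∈ K := by
      rw [← ha]
      exact K.pow_mem hqm a
    exact K.mul_mem hk₀ hqK
  -- conjugates of elements of `K` lie in `K ⊔ Q`
  have hxk : ∀ k' ∈ K, x * k' * x⁻¹ ∈ K ⊔ Q := by
    intro k' hk'
    have hyx : x * y⁻¹ * x⁻¹ ∈ K ⊔ Q := by
      have h3 : x * y⁻¹ * x⁻¹ = (x * y * x⁻¹)⁻¹ := by group
      rw [h3]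
      exact (K ⊔ Q).inv_mem hx
    have hoQ : ∀ o ∈ O, x * o * x⁻¹ ∈ K ⊔ Q := fun o ho =>
      (le_sup_right : Q ≤ K ⊔ Q) (hQn.conj_mem o (hOQ ho) x)
    obtain ⟨o, ho, h | h | h⟩ := hK k' hk'
    · rw [h]
      exact hoQ o ho
    · rw [h]
      have h4 : x * (y * o) * x⁻¹ = (x * y * x⁻¹) * (x * o * x⁻¹) := by group
      rw [h4]
      exact (K ⊔ Q).mul_mem hx (hoQ o ho)
    · rw [h]
      have h4 : x * (y⁻¹ * o) * x⁻¹ = (x * y⁻¹ * x⁻¹) * (x * o * x⁻¹) := by group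
      rw [h4]
      exact (K ⊔ Q).mul_mem hyx (hoQ o ho)
  have hle : Subgroup.closure {g : X | g ∈ K ∧ Odd (orderOf g)} ≤
      K.comap (MulAut.conj x).toMonoidHom := by
    rw [Subgroup.closure_le]
    intro g hg
    show (MulAut.conj x) g ∈ K
    apply hodd
    · rw [MulAut.conj_apply]
      exact hxk g hg.1
    · rw [(MulAut.conj x).orderOf_eq g]
      exact hg.2
  rw [hgen] at hle
  have h5 : (MulAut.conj x) k ∈ K := hle hk
  rw [MulAut.conj_apply] at h5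
  exact h5

end Cfsg.Agent.Lib.Helper56.JN
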