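import Mathlib
import Cfsg.Prelude.Def_LieTypeChar
import Cfsg.Agent.Lib.Lead.LTBCore
import Cfsg.Agent.Lib.Lead.LTBDefs

/-! S2363 project (lead), piece LTB-OPLUS: `oplus_stmt`. -/

set_option autoImplicit false

namespace Cfsg.Agent.Lib.Lead.LTB

open Cfsg

theorem ltboplus_prod_le (q : ℕ) (k : ℕ) :
    ∏ i ∈ Finset.range k, (q ^ (2 * (i + 1)) - 1) ≤ q ^ (k * (k + 1)) := by
  induction k with
  | zero => simp
  | succ k ih =>
    rw [Finset.prod_range_succ]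
    calc (∏ i ∈ Finset.range k, (q ^ (2 * (i + 1)) - 1)) * (q ^ (2 * (k + 1)) - 1)
        ≤ q ^ (k * (k + 1)) * q ^ (2 * (k + 1)) :=
          Nat.mul_le_mul ih (Nat.sub_le _ _)
      _ = q ^ ((k + 1) * (k + 1 + 1)) := by
          rw [← pow_add]
          congr 1
          ring

theorem oplus_stmt : OmegaPlusStmt := by
  intro p hp F _ _ _ m hm heq
  obtain ⟨f, _, hq⟩ := FiniteField.card F p
  rw [hq] at heq
  have hq2 : 2 ≤ p ^ (f : ℕ) := by
    calc 2 ≤ p := hp.two_le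
      _ = p ^ 1 := (pow_one p).symm
      _ ≤ p ^ (f : ℕ) := Nat.pow_le_pow_right hp.pos f.pos
  set q : ℕ := p ^ (f : ℕ) with hqdef
  have hqpos : 0 < q := by omega
  have hqm : 2 ≤ q ^ m := by
    calc 2 ≤ q := hq2
      _ = q ^ 1 := (pow_one q).symm
      _ ≤ q ^ m := Nat.pow_le_pow_right hqpos (by omega)
  -- `p` does not divide the gcd
  have hd : ¬ p ∣ Nat.gcd 4 (q ^ m - 1) := by
    intro h
    have h1 : p ∣ q ^ m - 1 := dvd_trans h (Nat.gcd_dvd_right _ _)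
    have h2 : p ∣ q ^ m := by
      rw [hqdef, ← pow_mul]
      exact dvd_pow_self p (by
        have := f.pos
        positivity)
    have h3 : p ∣ q ^ m - (q ^ m - 1) := Nat.dvd_sub h2 h1
    have h4 : q ^ m - (q ^ m - 1) = 1 := by omega
    rw [h4] at h3
    exact hp.one_lt.ne' (Nat.dvd_one.1 h3)
  have heq' : Nat.gcd 4 (q ^ m - 1) * Nat.card (POmega F (quadFormPlus m F)) =
      q ^ (m * (m - 1)) * ((q ^ m - 1) *
        ∏ i ∈ Finset.range (m - 1), (q ^ (2 * (i + 1)) - 1)) := by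
    rw [heq, mul_assoc]
  -- the cofactor is positive
  have hprodpos : 0 < ∏ i ∈ Finset.range (m - 1), (q ^ (2 * (i + 1)) - 1) := by
    apply Finset.prod_pos
    intro i _
    have : 2 ≤ q ^ (2 * (i + 1)) := by
      calc 2 ≤ q := hq2
        _ = q ^ 1 := (pow_one q).symm
        _ ≤ q ^ (2 * (i + 1)) := Nat.pow_le_pow_right hqpos (by omega)
    omega
  have hMpos : 0 < q ^ (m * (m - 1)) * ((q ^ m - 1) *
        ∏ i ∈ Finset.range (m - 1), (q ^ (2 * (i + 1)) - 1)) := by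
    have h1 : 0 < q ^ m - 1 := by omega
    positivity
  have hcard : Nat.card (POmega F (quadFormPlus m F)) ≠ 0 := by
    intro h0
    rw [h0, mul_zero] at heq'
    omega
  have : Finite (POmega F (quadFormPlus m F)) := Nat.finite_of_card_ne_zero hcard
  have hM : (q ^ m - 1) * ∏ i ∈ Finset.range (m - 1), (q ^ (2 * (i + 1)) - 1) < q ^ (m ^ 2) := by
    have h1 := ltboplus_prod_le q (m - 1)
    have h2 : q ^ m - 1 < q ^ m := by omega
    have h3 : q ^ m * q ^ ((m - 1) * (m - 1 + 1)) = q ^ (m ^ 2) := by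
      rw [← pow_add]
      congr 1
      obtain ⟨k, rfl⟩ : ∃ k, m = k + 1 := ⟨m - 1, by omega⟩
      simp only [Nat.add_sub_cancel]
      ring
    calc (q ^ m - 1) * ∏ i ∈ Finset.range (m - 1), (q ^ (2 * (i + 1)) - 1)
        < q ^ m * ∏ i ∈ Finset.range (m - 1), (q ^ (2 * (i + 1)) - 1) :=
          Nat.mul_lt_mul_of_pos_right h2 hprodpos
      _ ≤ q ^ m * q ^ ((m - 1) * (m - 1 + 1)) := Nat.mul_le_mul_left _ h1
      _ = q ^ (m ^ 2) := h3
  have hD : 3 * (m * (m - 1) + m ^ 2) ≤ 8 * (m * (m - 1)) := by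
    obtain ⟨k, rfl⟩ : ∃ k, m = k + 4 := ⟨m - 4, by omega⟩
    have e : k + 4 - 1 = k + 3 := by omega
    rw [e]
    nlinarith [Nat.zero_le k, Nat.zero_le (k * k)]
  exact goal_of_q_mul_bounds p hp f (m * (m - 1)) (m ^ 2) (Nat.gcd 4 (q ^ m - 1))
    ((q ^ m - 1) * ∏ i ∈ Finset.range (m - 1), (q ^ (2 * (i + 1)) - 1)) hd heq' hM hD

end Cfsg.Agent.Lib.Lead.LTB
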