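import Mathlib
import Cfsg.Prelude.Def_GeometricClasses
import Cfsg.Agent.Lib.Helper47.SemiConjMat

/-!
# S5981 (helper96): piece CONJMODEL

If `Q` is similar (via `L`) to a form `Q'` having a similarity `J` with `J ^ k` scalar, and
`x ∈ SL_n` has `x ^ k` the same scalar and the same characteristic polynomial as `J`, then `x` is
`SL_n`-conjugate into the similarity group of `Q`.
-/

set_option autoImplicit false

namespace Cfsg.Agent.Lib.Helper56.Oq

open Polynomial Matrix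
open scoped MatrixGroups

/-- a matrix with a scalar `r`-th power, `r` invertible, is semisimple -/
theorem conjmodel_semisimple {K : Type*} [Field K] {n : ℕ} (M : Matrix (Fin n) (Fin n) K) (r : ℕ)
    (hrF : (r : K) ≠ 0) {c : K} (hc0 : c ≠ 0)
    (hM : M ^ r = c • (1 : Matrix (Fin n) (Fin n) K)) :
    Module.End.IsSemisimple (Matrix.toLin' M) := by
  have hsep : (X ^ r - C c : K[X]).Separable := separable_X_pow_sub_C c hrF hc0
  apply Module.End.isSemisimple_of_squarefree_aeval_eq_zero hsep.squarefree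
  rw [map_sub, map_pow, aeval_X, aeval_C, ← Matrix.toLin'_pow, hM]
  apply LinearMap.ext
  intro v
  simp [Algebra.algebraMap_eq_smul_one]

theorem conj_of_model {F : Type*} [Field F] [Fintype F] {n : ℕ} (hn : 0 < n)
    (Q : (Fin n → F) → F) {ι' : Type} [Fintype ι'] [DecidableEq ι'] (Q' : (ι' → F) → F)
    (L : (Fin n → F) ≃ₗ[F] (ι' → F)) (c : F) (hc : c ≠ 0) (hL : ∀ v, Q' (L v) = c * Q v)
    (J : Matrix ι' ι' F) (μ : F) (hμ : μ ≠ 0) (hJ : ∀ w, Q' (J *ᵥ w) = μ * Q' w)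
    (k : ℕ) (hk : (k : F) ≠ 0) (ζ : F) (hζ : ζ ≠ 0) (hJk : J ^ k = ζ • (1 : Matrix ι' ι' F))
    (x : GL (Fin n) F) (hx : x ∈ Cfsg.Geo.specialLinear (Fin n) F)
    (hxk : (x : Matrix (Fin n) (Fin n) F) ^ k = ζ • (1 : Matrix (Fin n) (Fin n) F))
    (hch : (x : Matrix (Fin n) (Fin n) F).charpoly = J.charpoly) :
    ∃ g ∈ Cfsg.Geo.specialLinear (Fin n) F, g⁻¹ * x * g ∈ Cfsg.Geo.quadSimilarityGroup Q := by
  classical
  have hne : Nonempty (Fin n) := Fin.pos_iff_nonempty.mp hn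
  obtain ⟨J₀, hJ₀⟩ : ∃ J₀ : Matrix (Fin n) (Fin n) F,
      J₀ = LinearMap.toMatrix' (L.symm.conj (Matrix.toLin' J)) := ⟨_, rfl⟩
  have hlin : Matrix.toLin' J₀ = L.symm.conj (Matrix.toLin' J) := by
    rw [hJ₀, Matrix.toLin'_toMatrix']
  have hJ₀v : ∀ v, J₀ *ᵥ v = L.symm (J *ᵥ L v) := by
    intro v
    have h2 := congrArg (fun f => f v) hlin
    simp only [Matrix.toLin'_apply] at h2
    rw [h2, LinearEquiv.conj_apply_apply, LinearEquiv.symm_symm, Matrix.toLin'_apply]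
  -- `J₀` multiplies `Q` by `μ`
  have hJ₀Q : ∀ v, Q (J₀ *ᵥ v) = μ * Q v := by
    intro v
    have h1 : c * Q (J₀ *ᵥ v) = c * (μ * Q v) := by
      rw [← hL, hJ₀v, LinearEquiv.apply_symm_apply, hJ, hL]
      ring
    exact mul_left_cancel₀ hc h1
  -- powers
  have hpow : ∀ (j : ℕ) (v : Fin n → F), (J₀ ^ j) *ᵥ v = L.symm ((J ^ j) *ᵥ L v) := by
    intro j
    induction j with
    | zero =>
      intro v
      rw [pow_zero, pow_zero, Matrix.one_mulVec, Matrix.one_mulVec, LinearEquiv.symm_apply_apply]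
    | succ j ih =>
      intro v
      rw [pow_succ, pow_succ, ← Matrix.mulVec_mulVec, ih, hJ₀v, LinearEquiv.apply_symm_apply,
        Matrix.mulVec_mulVec]
  have hJ₀k : J₀ ^ k = ζ • (1 : Matrix (Fin n) (Fin n) F) := by
    apply Matrix.toLin'.injective
    apply LinearMap.ext
    intro v
    rw [Matrix.toLin'_apply, Matrix.toLin'_apply, hpow, hJk, Matrix.smul_mulVec,
      Matrix.one_mulVec, Matrix.smul_mulVec, Matrix.one_mulVec, map_smul,
      LinearEquiv.symm_apply_apply]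
  -- semisimplicity and characteristic polynomials
  have hsJ₀ : Module.End.IsSemisimple (Matrix.toLin' J₀) := conjmodel_semisimple J₀ k hk hζ hJ₀k
  have hsx : Module.End.IsSemisimple (Matrix.toLin' (x : Matrix (Fin n) (Fin n) F)) :=
    conjmodel_semisimple _ k hk hζ hxk
  have hchJ₀ : J₀.charpoly = J.charpoly := by
    rw [← Matrix.charpoly_toLin' J₀, hlin, LinearEquiv.charpoly_conj, Matrix.charpoly_toLin']
  obtain ⟨P, hPdet, hPx⟩ := Cfsg.Agent.Lib.Helper47.exists_conj_matrix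
    (x : Matrix (Fin n) (Fin n) F) J₀ hsx hsJ₀ (by rw [hch, hchJ₀])
  have hPunit : IsUnit P := (Matrix.isUnit_iff_isUnit_det P).mpr hPdet
  obtain ⟨A, hA⟩ := hPunit
  have hPdet0 : P.det ≠ 0 := hPdet.ne_zero
  obtain ⟨Cm, hcomm, hCdet⟩ := Cfsg.Agent.Lib.Helper47.exists_commute_matrix_det
    (x : Matrix (Fin n) (Fin n) F) hsx (P.det)⁻¹
  have hCunit : IsUnit Cm := by
    rw [Matrix.isUnit_iff_isUnit_det, hCdet]
    exact (inv_ne_zero hPdet0).isUnit
  obtain ⟨Cu, hCu⟩ := hCunit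
  have hcu : Cu * x = x * Cu := by
    apply Units.ext
    rw [Units.val_mul, Units.val_mul, hCu]
    exact hcomm
  have hdet1 : ((A * Cu : GL (Fin n) F) : Matrix (Fin n) (Fin n) F).det = 1 := by
    rw [Units.val_mul, Matrix.det_mul, hCu, hCdet, hA, mul_inv_cancel₀ hPdet0]
  have hmemSL : A * Cu ∈ Cfsg.Geo.specialLinear (Fin n) F := by
    rw [Cfsg.Geo.specialLinear, MonoidHom.mem_ker, Units.ext_iff]
    exact hdet1
  refine ⟨(A * Cu)⁻¹, Subgroup.inv_mem _ hmemSL, ?_⟩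
  have heq : (A * Cu)⁻¹⁻¹ * x * (A * Cu)⁻¹ = A * x * A⁻¹ := by
    rw [inv_inv, mul_assoc A Cu, hcu]
    group
  rw [heq]
  have hAx : ((A * x * A⁻¹ : GL (Fin n) F) : Matrix (Fin n) (Fin n) F) = J₀ := by
    have h1 : (A * x : GL (Fin n) F) = (A * x * A⁻¹) * A := by group
    have h2 : ((A * x * A⁻¹ : GL (Fin n) F) : Matrix (Fin n) (Fin n) F) * P = J₀ * P := by
      rw [← hPx, ← hA, ← Units.val_mul, ← Units.val_mul, ← h1]
    have hPu : IsUnit P := (Matrix.isUnit_iff_isUnit_det P).mpr hPdet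
    exact hPu.mul_left_injective h2
  refine ⟨Units.mk0 μ hμ, fun v => ?_⟩
  rw [hAx, Units.val_mk0]
  exact hJ₀Q v

end Cfsg.Agent.Lib.Helper56.Oq
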