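import Mathlib
import Cfsg.Agent.Lib.Helper54.SL2Cent
import Cfsg.Agent.Lib.Helper95.QABORD
import Cfsg.Agent.Lib.Helper88.QABCENT

/-! Project QB (helper48, S2359), piece SL2R (backup copy by helper56): the centralizer in
`SL₂(F)`, `char F = 3`, of an element of prime order `r ∣ q + 1`, `r ≠ 2, 3`. -/

set_option autoImplicit false

namespace Cfsg.Agent.Lib.Helper48.QB

-- QB-SL2R
theorem sl2_cent_prime {F : Type*} [Field F] [Fintype F] [CharP F 3] (r : ℕ) (hr : r.Prime)
    (hr2 : r ≠ 2) (hr3 : r ≠ 3) (hdvd : r ∣ Fintype.card F + 1)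
    (g : Matrix.SpecialLinearGroup (Fin 2) F) (hg : orderOf g = r) :
    Nat.card (Subgroup.centralizer {g}) = Fintype.card F + 1 ∧
      ∀ a ∈ Subgroup.centralizer {g}, ∀ b ∈ Subgroup.centralizer {g}, a * b = b * a := by
  have hf3 : Fact (Nat.Prime 3) := ⟨Nat.prime_three⟩
  have hg1 : g ≠ 1 := by
    intro h
    rw [h, orderOf_one] at hg
    exact hr.ne_one hg.symm
  have hfin : IsOfFinOrder g := orderOf_pos_iff.mp (by rw [hg]; exact hr.pos)
  have hcop : Nat.Coprime (orderOf g) (2 * 3) := by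
    rw [hg]
    exact Nat.Coprime.mul_right ((Nat.coprime_primes hr Nat.prime_two).mpr hr2)
      ((Nat.coprime_primes hr Nat.prime_three).mpr hr3)
  have ht : Matrix.trace (g : Matrix (Fin 2) (Fin 2) F) ^ 2 ≠ 4 :=
    Cfsg.Agent.Lib.Helper48.QA.trace_sq_ne_four (p := 3) (by norm_num) g hg1 hfin hcop
  have h2 : (2 : F) ≠ 0 := by
    intro h
    have h' : ((2 : ℕ) : F) = 0 := by exact_mod_cast h
    rw [CharP.cast_eq_zero_iff F 3] at h'
    omega
  have hgmem : g ∈ Subgroup.centralizer ({g} : Set (Matrix.SpecialLinearGroup (Fin 2) F)) := by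
    rw [Subgroup.mem_centralizer_iff]
    intro z hz
    rw [Set.mem_singleton_iff] at hz
    rw [hz]
  have hrc : r ∣ Nat.card (Subgroup.centralizer
      ({g} : Set (Matrix.SpecialLinearGroup (Fin 2) F))) := by
    rw [← hg]
    exact Subgroup.orderOf_dvd_natCard _ hgmem
  have hnsc : ¬ ∃ a : F, (g : Matrix (Fin 2) (Fin 2) F) = a • (1 : Matrix (Fin 2) (Fin 2) F) := by
    rintro ⟨a, ha⟩
    apply ht
    have hdet := g.det_coe
    rw [ha] at hdet ⊢
    simp only [Matrix.det_fin_two, Matrix.trace_fin_two, Matrix.smul_apply, Matrix.one_apply_eq,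
      smul_eq_mul, mul_one, ne_eq, zero_ne_one, not_false_eq_true, Matrix.one_apply_ne,
      mul_zero] at hdet ⊢
    linear_combination 4 * hdet
  constructor
  · rcases Cfsg.Agent.Lib.Helper54.card_centralizer_singleton h2 g ht with h | h
    · exfalso
      rw [h] at hrc
      have hq : 1 ≤ Fintype.card F := Fintype.card_pos
      have h4 : r ∣ (Fintype.card F + 1) - (Fintype.card F - 1) := Nat.dvd_sub hdvd hrc
      have h5 : (Fintype.card F + 1) - (Fintype.card F - 1) = 2 := by omega
      rw [h5] at h4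
      exact hr2 ((Nat.prime_dvd_prime_iff_eq hr Nat.prime_two).mp h4)
    · exact h
  · intro a ha b hb
    rw [Subgroup.mem_centralizer_iff] at ha hb
    have hag : a * g = g * a := (ha g (Set.mem_singleton g)).symm
    have hbg : b * g = g * b := (hb g (Set.mem_singleton g)).symm
    obtain ⟨α, β, hab⟩ := Cfsg.Agent.Lib.Helper48.QA.cent_form g a hnsc hag
    obtain ⟨α', β', hab'⟩ := Cfsg.Agent.Lib.Helper48.QA.cent_form g b hnsc hbg
    have hGX : Commute (g : Matrix (Fin 2) (Fin 2) F)
        (α' • (1 : Matrix (Fin 2) (Fin 2) F) + β' • (g : Matrix (Fin 2) (Fin 2) F)) :=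
      ((Commute.one_right _).smul_right α').add_right ((Commute.refl _).smul_right β')
    have hcm : Commute (α • (1 : Matrix (Fin 2) (Fin 2) F) + β • (g : Matrix (Fin 2) (Fin 2) F))
        (α' • (1 : Matrix (Fin 2) (Fin 2) F) + β' • (g : Matrix (Fin 2) (Fin 2) F)) :=
      ((Commute.one_left _).smul_left α).add_left (hGX.smul_left β)
    apply Subtype.ext
    rw [Matrix.SpecialLinearGroup.coe_mul, Matrix.SpecialLinearGroup.coe_mul, hab, hab']
    exact hcm.eq

end Cfsg.Agent.Lib.Helper48.QB
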