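import Mathlib
import Cfsg.Agent.Lib.Helper72.S3Defs

set_option autoImplicit false
set_option linter.style.haveILetI false

universe u

namespace Cfsg.Agent.Lib.Helper56.S3F

open Cfsg.Agent.Lib.Helper72.S3F

section Basics

variable {V : Type u} [CommGroup V]

theorem km_fff {f t : MulAut V} (hs : S3 f t) (v : V) : f (f (f v)) = v := by
  have h : f * f * f = 1 := by rw [← hs.f3, pow_three']
  exact DFunLike.congr_fun h v

theorem km_ff {f t : MulAut V} (hs : S3 f t) : f * f = f⁻¹ := by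
  have h : f * f * f = 1 := by rw [← hs.f3, pow_three']
  exact eq_inv_of_mul_eq_one_left h

theorem km_tt {f t : MulAut V} (hs : S3 f t) : t⁻¹ = t := by
  have h : t * t = 1 := by rw [← hs.t2, pow_two]
  exact inv_eq_of_mul_eq_one_left h

theorem km_tf {f t : MulAut V} (hs : S3 f t) : t * f = f * f * t := by
  have h := hs.tf
  rw [km_ff hs, ← h]
  group

theorem km_tfv {f t : MulAut V} (hs : S3 f t) (v : V) : t (f v) = f (f (t v)) :=
  DFunLike.congr_fun (km_tf hs) v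

theorem km_tffv {f t : MulAut V} (hs : S3 f t) (v : V) : t (f (f v)) = f (t v) := by
  rw [km_tfv hs, km_tfv hs, km_fff hs]

theorem km_conj (x f : MulAut V) (w : V) : x (f w) = f ((f⁻¹ * x * f) w) := by
  have e : x * f = f * (f⁻¹ * x * f) := by group
  exact DFunLike.congr_fun e w

theorem km_fH' {H : Subgroup (MulAut V)} {f t : MulAut V} (hs : S3 f t)
    (hfH : ∀ x ∈ H, f * x * f⁻¹ ∈ H) (x : MulAut V) (hx : x ∈ H) : f⁻¹ * x * f ∈ H := by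
  have e : f⁻¹ * x * f = f * (f * x * f⁻¹) * f⁻¹ := by
    have h1 : f * (f * x * f⁻¹) * f⁻¹ = (f * f) * x * (f * f)⁻¹ := by group
    rw [h1, km_ff hs, inv_inv]
  rw [e]
  exact hfH _ (hfH x hx)

/-- `[H, g]` is normalised by `H`. -/
theorem km_cm_norm (H : Subgroup (MulAut V)) (g : MulAut V) (h : MulAut V) (hh : h ∈ H)
    (y : MulAut V) (hy : y ∈ cm H g) : h⁻¹ * y * h ∈ cm H g := by
  unfold cm at hy ⊢
  induction hy using Subgroup.closure_induction with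
  | mem y hy =>
    obtain ⟨x, hx, rfl⟩ := hy
    have e : h⁻¹ * (x⁻¹ * (g * x * g⁻¹)) * h =
        ((x * h)⁻¹ * (g * (x * h) * g⁻¹)) * (h⁻¹ * (g * h * g⁻¹))⁻¹ := by group
    rw [e]
    exact Subgroup.mul_mem _ (Subgroup.subset_closure ⟨x * h, H.mul_mem hx hh, rfl⟩)
      (Subgroup.inv_mem _ (Subgroup.subset_closure ⟨h, hh, rfl⟩))
  | one =>
    rw [mul_one, inv_mul_cancel]
    exact Subgroup.one_mem _
  | mul a b _ _ ha hb =>
    have e : h⁻¹ * (a * b) * h = (h⁻¹ * a * h) * (h⁻¹ * b * h) := by group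
    rw [e]
    exact Subgroup.mul_mem _ ha hb
  | inv a _ ha =>
    have e : h⁻¹ * a⁻¹ * h = (h⁻¹ * a * h)⁻¹ := by group
    rw [e]
    exact Subgroup.inv_mem _ ha

/-- `R0` is normal in `H`. -/
theorem km_R0_norm {H R : Subgroup (MulAut V)} {f t : MulAut V} (hX : Max H R f t)
    (h : MulAut V) (hh : h ∈ H) (u : MulAut V) (hu : u ∈ R0 H R t) :
    h * u * h⁻¹ ∈ R0 H R t := by
  have hu' : u ∈ R ⊓ Subgroup.centralizer (cm H t : Set (MulAut V)) := hu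
  obtain ⟨huR, huC⟩ := Subgroup.mem_inf.1 hu'
  show h * u * h⁻¹ ∈ R ⊓ Subgroup.centralizer (cm H t : Set (MulAut V))
  refine Subgroup.mem_inf.2 ⟨hX.nH h hh u huR, ?_⟩
  rw [Subgroup.mem_centralizer_iff] at huC ⊢
  intro y hy
  have hy' : h⁻¹ * y * h ∈ cm H t := km_cm_norm H t h hh y (SetLike.mem_coe.1 hy)
  have h1 := huC _ (SetLike.mem_coe.2 hy')
  calc y * (h * u * h⁻¹) = h * ((h⁻¹ * y * h) * u) * h⁻¹ := by group
    _ = h * (u * (h⁻¹ * y * h)) * h⁻¹ := by rw [h1]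
    _ = h * u * h⁻¹ * y := by group

theorem km_P0_H {H R : Subgroup (MulAut V)} {f t : MulAut V} (hX : Max H R f t)
    (x : MulAut V) (hx : x ∈ H) (w : V) (hw : w ∈ fix (R0 H R t)) :
    x w ∈ fix (R0 H R t) := by
  refine mem_fix.2 fun u hu => ?_
  have h1 : x⁻¹ * u * x ∈ R0 H R t := by
    have := km_R0_norm hX x⁻¹ (H.inv_mem hx) u hu
    rwa [inv_inv] at this
  rw [km_conj u x w, mem_fix.1 hw _ h1]

theorem km_P0_t {H R : Subgroup (MulAut V)} {f t : MulAut V} (hs : S3 f t)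
    (hinv : ∀ u ∈ R0 H R t, t * u * t⁻¹ = u⁻¹) (w : V) (hw : w ∈ fix (R0 H R t)) :
    t w ∈ fix (R0 H R t) := by
  refine mem_fix.2 fun u hu => ?_
  have e1 : t⁻¹ * u * t = t * u * t⁻¹ := by rw [km_tt hs]
  rw [km_conj u t w, e1, hinv u hu, mem_fix.1 hw _ ((R0 H R t).inv_mem hu)]

theorem km_map_H {H : Subgroup (MulAut V)} {f t : MulAut V} (hs : S3 f t)
    (hfH : ∀ x ∈ H, f * x * f⁻¹ ∈ H) (B : Subgroup V) (hB : ∀ x ∈ H, ∀ w ∈ B, x w ∈ B)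
    (x : MulAut V) (hx : x ∈ H) (v : V) (hv : v ∈ B.map f.toMonoidHom) :
    x v ∈ B.map f.toMonoidHom := by
  obtain ⟨w, hw, rfl⟩ := Subgroup.mem_map.1 hv
  refine Subgroup.mem_map.2 ⟨(f⁻¹ * x * f) w, hB _ (km_fH' hs hfH x hx) w hw, ?_⟩
  exact (km_conj x f w).symm

/-- A nontrivial `H`- and `t`-invariant subgroup spans `V` together with its two translates. -/
theorem km_span (H : Subgroup (MulAut V)) (f t : MulAut V) (hs : S3 f t)
    (hfH : ∀ x ∈ H, f * x * f⁻¹ ∈ H) (hI : Irr H f t) (B : Subgroup V)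
    (hBH : ∀ x ∈ H, ∀ w ∈ B, x w ∈ B) (hBt : ∀ w ∈ B, t w ∈ B) (hB : B ≠ ⊥) :
    ∀ v : V, ∃ w₀ ∈ B, ∃ w₁ ∈ B, ∃ w₂ ∈ B, v = w₀ * f w₁ * f (f w₂) := by
  let W : Subgroup V :=
    { carrier := {v | ∃ w₀ ∈ B, ∃ w₁ ∈ B, ∃ w₂ ∈ B, v = w₀ * f w₁ * f (f w₂)}
      mul_mem' := by
        rintro a b ⟨a₀, ha₀, a₁, ha₁, a₂, ha₂, rfl⟩ ⟨b₀, hb₀, b₁, hb₁, b₂, hb₂, rfl⟩
        refine ⟨a₀ * b₀, B.mul_mem ha₀ hb₀, a₁ * b₁, B.mul_mem ha₁ hb₁, a₂ * b₂,
          B.mul_mem ha₂ hb₂, ?_⟩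
        rw [map_mul, map_mul, map_mul]
        ac_rfl
      one_mem' := ⟨1, B.one_mem, 1, B.one_mem, 1, B.one_mem, by
        rw [map_one, map_one, mul_one, mul_one]⟩
      inv_mem' := by
        rintro a ⟨a₀, ha₀, a₁, ha₁, a₂, ha₂, rfl⟩
        refine ⟨a₀⁻¹, B.inv_mem ha₀, a₁⁻¹, B.inv_mem ha₁, a₂⁻¹, B.inv_mem ha₂, ?_⟩
        rw [map_inv, map_inv, map_inv, mul_inv, mul_inv] }
  have hW : ∀ v, v ∈ W ↔ ∃ w₀ ∈ B, ∃ w₁ ∈ B, ∃ w₂ ∈ B, v = w₀ * f w₁ * f (f w₂) :=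
    fun v => Iff.rfl
  have h1 : ∀ x ∈ H, ∀ w ∈ W, x w ∈ W := by
    intro x hx w hw
    obtain ⟨w₀, hw₀, w₁, hw₁, w₂, hw₂, rfl⟩ := (hW w).1 hw
    have hx1 : f⁻¹ * x * f ∈ H := km_fH' hs hfH x hx
    have hx2 : f⁻¹ * (f⁻¹ * x * f) * f ∈ H := km_fH' hs hfH _ hx1
    refine (hW _).2 ⟨x w₀, hBH x hx w₀ hw₀, (f⁻¹ * x * f) w₁, hBH _ hx1 w₁ hw₁,
      (f⁻¹ * (f⁻¹ * x * f) * f) w₂, hBH _ hx2 w₂ hw₂, ?_⟩
    rw [map_mul, map_mul, km_conj x f w₁, km_conj x f (f w₂), km_conj (f⁻¹ * x * f) f w₂]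
  have h2 : ∀ w ∈ W, f w ∈ W := by
    intro w hw
    obtain ⟨w₀, hw₀, w₁, hw₁, w₂, hw₂, rfl⟩ := (hW w).1 hw
    refine (hW _).2 ⟨w₂, hw₂, w₀, hw₀, w₁, hw₁, ?_⟩
    rw [map_mul, map_mul, km_fff hs]
    ac_rfl
  have h3 : ∀ w ∈ W, t w ∈ W := by
    intro w hw
    obtain ⟨w₀, hw₀, w₁, hw₁, w₂, hw₂, rfl⟩ := (hW w).1 hw
    refine (hW _).2 ⟨t w₀, hBt w₀ hw₀, t w₂, hBt w₂ hw₂, t w₁, hBt w₁ hw₁, ?_⟩
    rw [map_mul, map_mul, km_tfv hs, km_tffv hs]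
    ac_rfl
  have hBW : ∀ b ∈ B, b ∈ W := fun b hb =>
    (hW b).2 ⟨b, hb, 1, B.one_mem, 1, B.one_mem, by rw [map_one, map_one, mul_one, mul_one]⟩
  rcases hI W h1 h2 h3 with h | h
  · exfalso
    apply hB
    rw [Subgroup.eq_bot_iff_forall]
    intro b hb
    have := hBW b hb
    rw [h] at this
    exact Subgroup.mem_bot.1 this
  · intro v
    have hv : v ∈ W := by rw [h]; exact Subgroup.mem_top v
    exact (hW v).1 hv

end Basics

/-- Piece KMOD of S4305: case (ii), module part. -/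
theorem kmod (h6 : Reg6cStmt.{u}) (hb : BlockStmt.{u}) (hq : LemQStmt.{u}) : KmodStmt.{u} := by
  intro V _ _ p H R f t hA hM hI hX hne hinv hind
  classical
  have hs := hA.s3
  obtain ⟨P0, hP0⟩ : ∃ P0 : Subgroup V, P0 = fix (R0 H R t) := ⟨_, rfl⟩
  obtain ⟨P1, hP1⟩ : ∃ P1 : Subgroup V, P1 = P0.map f.toMonoidHom := ⟨_, rfl⟩
  obtain ⟨P2, hP2⟩ : ∃ P2 : Subgroup V, P2 = P1.map f.toMonoidHom := ⟨_, rfl⟩
  have hP0H : ∀ x ∈ H, ∀ w ∈ P0, x w ∈ P0 := by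
    rw [hP0]
    exact fun x hx w hw => km_P0_H hX x hx w hw
  have hP1H : ∀ x ∈ H, ∀ w ∈ P1, x w ∈ P1 := by
    rw [hP1]
    exact fun x hx w hw => km_map_H hs hA.fH P0 hP0H x hx w hw
  have hP2H : ∀ x ∈ H, ∀ w ∈ P2, x w ∈ P2 := by
    rw [hP2]
    exact fun x hx w hw => km_map_H hs hA.fH P1 hP1H x hx w hw
  have hP0t : ∀ w ∈ P0, t w ∈ P0 := by
    rw [hP0]
    exact fun w hw => km_P0_t hs hinv w hw
  have h01 : ∀ w ∈ P0, f w ∈ P1 := fun w hw => by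
    rw [hP1]
    exact Subgroup.mem_map.2 ⟨w, hw, rfl⟩
  have h12 : ∀ w ∈ P1, f w ∈ P2 := fun w hw => by
    rw [hP2]
    exact Subgroup.mem_map.2 ⟨w, hw, rfl⟩
  have h20 : ∀ w ∈ P2, f w ∈ P0 := by
    intro w hw
    rw [hP2] at hw
    obtain ⟨w1, hw1, rfl⟩ := Subgroup.mem_map.1 hw
    rw [hP1] at hw1
    obtain ⟨w0, hw0, rfl⟩ := Subgroup.mem_map.1 hw1
    have e : f (f (f w0)) = w0 := km_fff hs w0
    show f (f (f w0)) ∈ P0
    rw [e]
    exact hw0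
  have ht12 : ∀ w ∈ P1, t w ∈ P2 := by
    intro w hw
    rw [hP1] at hw
    obtain ⟨w0, hw0, rfl⟩ := Subgroup.mem_map.1 hw
    show t (f w0) ∈ P2
    rw [km_tfv hs]
    exact h12 _ (h01 _ (hP0t w0 hw0))
  have ht21 : ∀ w ∈ P2, t w ∈ P1 := by
    intro w hw
    rw [hP2] at hw
    obtain ⟨w1, hw1, rfl⟩ := Subgroup.mem_map.1 hw
    rw [hP1] at hw1
    obtain ⟨w0, hw0, rfl⟩ := Subgroup.mem_map.1 hw1
    show t (f (f w0)) ∈ P1
    rw [km_tffv hs]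
    exact h01 _ (hP0t w0 hw0)
  -- the triple intersection is trivial
  have h3 : P0 ⊓ P1 ⊓ P2 = ⊥ := by
    have hW := hI (P0 ⊓ P1 ⊓ P2)
      (fun x hx w hw => Subgroup.mem_inf.2 ⟨Subgroup.mem_inf.2
        ⟨hP0H x hx w (Subgroup.mem_inf.1 (Subgroup.mem_inf.1 hw).1).1,
          hP1H x hx w (Subgroup.mem_inf.1 (Subgroup.mem_inf.1 hw).1).2⟩,
        hP2H x hx w (Subgroup.mem_inf.1 hw).2⟩)
      (fun w hw => Subgroup.mem_inf.2 ⟨Subgroup.mem_inf.2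
        ⟨h20 w (Subgroup.mem_inf.1 hw).2,
          h01 w (Subgroup.mem_inf.1 (Subgroup.mem_inf.1 hw).1).1⟩,
        h12 w (Subgroup.mem_inf.1 (Subgroup.mem_inf.1 hw).1).2⟩)
      (fun w hw => Subgroup.mem_inf.2 ⟨Subgroup.mem_inf.2
        ⟨hP0t w (Subgroup.mem_inf.1 (Subgroup.mem_inf.1 hw).1).1,
          ht21 w (Subgroup.mem_inf.1 hw).2⟩,
        ht12 w (Subgroup.mem_inf.1 (Subgroup.mem_inf.1 hw).1).2⟩)
    rcases hW with h | h
    · exact h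
    · exfalso
      apply hne
      rw [Subgroup.eq_bot_iff_forall]
      intro u hu
      apply MulEquiv.ext
      intro v
      have hv : v ∈ P0 ⊓ P1 ⊓ P2 := by
        rw [h]
        exact Subgroup.mem_top v
      have hv0 : v ∈ P0 := (Subgroup.mem_inf.1 (Subgroup.mem_inf.1 hv).1).1
      rw [hP0] at hv0
      exact mem_fix.1 hv0 u hu
  -- `P0` is not trivial
  have hP0ne : P0 ≠ ⊥ := by
    intro hP0bot
    have hodd : ∀ u ∈ R0 H R t, u ∈ cm R t := by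
      intro u hu
      have huR : u ∈ R := (Subgroup.mem_inf.1 (show u ∈ R ⊓ _ from hu)).1
      have hgen : u⁻¹ * (t * u * t⁻¹) ∈ cm R t := Subgroup.subset_closure ⟨u, huR, rfl⟩
      rw [hinv u hu] at hgen
      have hsq : u ^ 2 ∈ cm R t := by
        have h1 := Subgroup.inv_mem _ hgen
        have e : (u⁻¹ * u⁻¹)⁻¹ = u ^ 2 := by group
        rwa [e] at h1
      have hcard : (Nat.card R).Coprime 2 := by
        have h1 : Nat.card R ∣ Nat.card H := Subgroup.card_dvd_of_le hX.le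
        have h2 : (Nat.card R).Coprime 6 := Nat.Coprime.coprime_dvd_left h1 hA.cop
        exact Nat.Coprime.coprime_dvd_right (by norm_num : 2 ∣ 6) h2
      have hpow : u ^ Nat.card R = 1 := by
        have h1 : (⟨u, huR⟩ : ↥R) ^ Nat.card ↥R = 1 := pow_card_eq_one'
        have h2 : (((⟨u, huR⟩ : ↥R) ^ Nat.card ↥R : ↥R) : MulAut V) = u ^ Nat.card ↥R :=
          Subgroup.coe_pow R _ _
        rw [← h2, h1]
        rfl
      obtain ⟨k, hk⟩ : Odd (Nat.card R) := Nat.coprime_two_left.1 hcard.symm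
      have e : u = (u ^ 2) ^ (k + 1) := by
        rw [← pow_mul, show 2 * (k + 1) = Nat.card R + 1 by omega, pow_succ, hpow, one_mul]
      rw [e]
      exact Subgroup.pow_mem _ hsq _
    have hfixt : ∀ v ∈ fix (cm R t), v = 1 := by
      intro v hv
      have h1 : v ∈ P0 := by
        rw [hP0]
        exact mem_fix.2 fun u hu => mem_fix.1 hv u (hodd u hu)
      rw [hP0bot] at h1
      exact Subgroup.mem_bot.1 h1
    have hfixf : ∀ v : V, v ∈ fix (cm R f) := by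
      intro v
      obtain ⟨a, ha, w₀, hw₀, w₁, hw₁, w₂, hw₂, e⟩ :=
        h6 V f t R hs hM.fpf hX.comm hX.fR hX.tR hX.cop v
      rw [hfixt w₀ hw₀, hfixt w₁ hw₁, hfixt w₂ hw₂, map_one, map_one, mul_one, mul_one,
        mul_one] at e
      rw [e]
      exact ha
    have hfc : ∀ u ∈ R, f * u * f⁻¹ = u := by
      intro u hu
      have hg : u⁻¹ * (f * u * f⁻¹) ∈ cm R f := Subgroup.subset_closure ⟨u, hu, rfl⟩
      have h1 : u⁻¹ * (f * u * f⁻¹) = 1 := MulEquiv.ext fun v => mem_fix.1 (hfixf v) _ hg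
      exact (inv_mul_eq_one.1 h1).symm
    apply hne
    rw [Subgroup.eq_bot_iff_forall]
    intro u hu
    have huR : u ∈ R := (Subgroup.mem_inf.1 (show u ∈ R ⊓ _ from hu)).1
    apply hind u hu u hu 1 (Subgroup.one_mem _)
    rw [hfc u huR]
    group
  -- conclusion from a block
  have hfin : ∀ B : Subgroup V, (∀ x ∈ H, ∀ w ∈ B, x w ∈ B) → (∀ w ∈ B, t w ∈ B) → B ≠ ⊥ →
      (∀ w ∈ B, ∀ w₁ ∈ B, ∀ w₂ ∈ B, w = f w₁ * f (f w₂) → w = 1) → Comm H := by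
    intro B hBH hBt hBne hdis
    have hspan := km_span H f t hs hA.fH hI B hBH hBt hBne
    exact hq V H f t hA (hb V H f t B hA hM.fpf hBH hBt hdis hspan)
  by_cases hA12 : P1 ⊓ P2 = ⊥
  · -- the three subgroups are pairwise disjoint: take `B = P0`
    have h01bot : ∀ v, v ∈ P0 → v ∈ P1 → v = 1 := by
      intro v hv0 hv1
      have h1 : f v ∈ P1 ⊓ P2 := Subgroup.mem_inf.2 ⟨h01 v hv0, h12 v hv1⟩
      rw [hA12] at h1
      have h2 : f v = 1 := Subgroup.mem_bot.1 h1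
      exact f.injective (by rw [h2, map_one])
    have h02bot : ∀ v, v ∈ P0 → v ∈ P2 → v = 1 := by
      intro v hv0 hv2
      have h2 : f v = 1 := h01bot (f v) (h20 v hv2) (h01 v hv0)
      exact f.injective (by rw [h2, map_one])
    refine hfin P0 hP0H hP0t hP0ne ?_
    intro w hw w₁ hw₁ w₂ hw₂ e
    have : Finite (MulAut V) :=
      Finite.of_injective (fun g : MulAut V => (g : V → V)) DFunLike.coe_injective
    haveI : Fintype ↥(R0 H R t) := Fintype.ofFinite _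
    obtain ⟨σ, hσ⟩ : ∃ σ : V → V, ∀ v, σ v = ∏ b : ↥(R0 H R t), (b : MulAut V) v :=
      ⟨fun v => ∏ b : ↥(R0 H R t), (b : MulAut V) v, fun v => rfl⟩
    have hσ0 : ∀ v, σ v ∈ P0 := by
      intro v
      rw [hP0]
      refine mem_fix.2 fun u hu => ?_
      rw [hσ, map_prod]
      exact Fintype.prod_equiv (Equiv.mulLeft (⟨u, hu⟩ : ↥(R0 H R t)))
        (fun b => u ((b : MulAut V) v)) (fun b => (b : MulAut V) v) (fun b => rfl)
    have hR0H : ∀ b ∈ R0 H R t, b ∈ H := fun b hb =>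
      hX.le (Subgroup.mem_inf.1 (show b ∈ R ⊓ _ from hb)).1
    have hσi : ∀ Q : Subgroup V, (∀ x ∈ H, ∀ w ∈ Q, x w ∈ Q) → ∀ v ∈ Q, σ v ∈ Q := by
      intro Q hQ v hv
      rw [hσ]
      exact Subgroup.prod_mem Q fun b _ => hQ b.1 (hR0H b.1 b.2) v hv
    have hσmul : ∀ a b, σ (a * b) = σ a * σ b := by
      intro a b
      rw [hσ, hσ, hσ, ← Finset.prod_mul_distrib]
      exact Finset.prod_congr rfl fun c _ => map_mul _ _ _
    have hσP0 : ∀ v ∈ P0, σ v = v ^ Nat.card (R0 H R t) := by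
      intro v hv
      rw [hP0] at hv
      rw [hσ, Finset.prod_congr rfl fun b _ => mem_fix.1 hv b.1 b.2, Finset.prod_const,
        Finset.card_univ, Nat.card_eq_fintype_card]
    have e1 : σ (f w₁) = 1 :=
      h01bot _ (hσ0 _) (hσi P1 hP1H _ (h01 w₁ hw₁))
    have e2 : σ (f (f w₂)) = 1 :=
      h02bot _ (hσ0 _) (hσi P2 hP2H _ (h12 _ (h01 w₂ hw₂)))
    have hpow : w ^ Nat.card (R0 H R t) = 1 := by
      rw [← hσP0 w hw, e, hσmul, e1, e2, mul_one]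
    have hcop : (Nat.card (R0 H R t)).Coprime (Nat.card V) :=
      Nat.Coprime.coprime_dvd_left
        (Subgroup.card_dvd_of_le (show R0 H R t ≤ R from inf_le_left)) hX.cop
    have hord : orderOf w ∣ Nat.gcd (Nat.card (R0 H R t)) (Nat.card V) :=
      Nat.dvd_gcd (orderOf_dvd_of_pow_eq_one hpow) (orderOf_dvd_natCard w)
    rw [Nat.Coprime.gcd_eq_one hcop, Nat.dvd_one] at hord
    exact orderOf_eq_one_iff.1 hord
  · -- take `B = P1 ⊓ P2`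
    refine hfin (P1 ⊓ P2)
      (fun x hx w hw => Subgroup.mem_inf.2
        ⟨hP1H x hx w (Subgroup.mem_inf.1 hw).1, hP2H x hx w (Subgroup.mem_inf.1 hw).2⟩)
      (fun w hw => Subgroup.mem_inf.2
        ⟨ht21 w (Subgroup.mem_inf.1 hw).2, ht12 w (Subgroup.mem_inf.1 hw).1⟩) hA12 ?_
    intro w hw w₁ hw₁ w₂ hw₂ e
    have a1 : f w₁ ∈ P0 := h20 w₁ (Subgroup.mem_inf.1 hw₁).2
    have a2 : f (f w₂) ∈ P0 := h20 _ (h12 w₂ (Subgroup.mem_inf.1 hw₂).1)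
    have hw0 : w ∈ P0 := by
      rw [e]
      exact P0.mul_mem a1 a2
    have h4 : w ∈ P0 ⊓ P1 ⊓ P2 := Subgroup.mem_inf.2
      ⟨Subgroup.mem_inf.2 ⟨hw0, (Subgroup.mem_inf.1 hw).1⟩, (Subgroup.mem_inf.1 hw).2⟩
    rw [h3] at h4
    exact Subgroup.mem_bot.1 h4

end Cfsg.Agent.Lib.Helper56.S3F
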