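import Mathlib
import Cfsg.Prelude.Def_GeometricClasses
import Cfsg.Agent.Lib.Helper98.SympM2
import Cfsg.Agent.Lib.Helper42.SME35

/-!
S6002, piece SM-FWD2: elements of order three and five of `Sp_4(F)` are not all conjugate into the
normaliser of `2^{1+4}_-`.
-/

set_option autoImplicit false

namespace Cfsg.Agent.Lib.Helper98.SM

open Matrix

section FWD2

variable {F : Type*} [Field F]

theorem fwd2_conj_scalar (g x : GL (Fin 2 ⊕ Fin 2) F) (l : F)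
    (h : ((g⁻¹ * x * g : GL (Fin 2 ⊕ Fin 2) F) : Matrix (Fin 2 ⊕ Fin 2) (Fin 2 ⊕ Fin 2) F)
      = l • (1 : Matrix (Fin 2 ⊕ Fin 2) (Fin 2 ⊕ Fin 2) F)) :
    (x : Matrix (Fin 2 ⊕ Fin 2) (Fin 2 ⊕ Fin 2) F)
      = l • (1 : Matrix (Fin 2 ⊕ Fin 2) (Fin 2 ⊕ Fin 2) F) := by
  have e : x = g * (g⁻¹ * x * g) * g⁻¹ := by group
  rw [e, Units.val_mul, Units.val_mul, h, Matrix.mul_smul, Matrix.mul_one, Matrix.smul_mul,
    Units.mul_inv]

theorem fwd2_conj_trace (g x : GL (Fin 2 ⊕ Fin 2) F) :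
    ((g⁻¹ * x * g : GL (Fin 2 ⊕ Fin 2) F) : Matrix (Fin 2 ⊕ Fin 2) (Fin 2 ⊕ Fin 2) F).trace
      = (x : Matrix (Fin 2 ⊕ Fin 2) (Fin 2 ⊕ Fin 2) F).trace := by
  rw [Units.val_mul, Units.val_mul, Matrix.trace_mul_cycle, Units.mul_inv, Matrix.one_mul]

theorem fwd2_conj_inv (g x : GL (Fin 2 ⊕ Fin 2) F) : (g⁻¹ * x * g)⁻¹ = g⁻¹ * x⁻¹ * g := by
  group

theorem fwd2_conj_pow (g x : GL (Fin 2 ⊕ Fin 2) F) (k : ℕ) :
    (g⁻¹ * x * g) ^ k = g⁻¹ * x ^ k * g := by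
  have h := @conj_pow (GL (Fin 2 ⊕ Fin 2) F) _ k g⁻¹ x
  rw [inv_inv] at h
  exact h

/-- order three -/
theorem fwd_three {R : Subgroup (GL (Fin 2 ⊕ Fin 2) F)} (hG : GoodM R)
    (hK : NoKlein R) (h3 : (3 : F) ≠ 0) (hall : AllFixM R 3) : False := by
  have h2 := hG.h2
  obtain ⟨x, hx1, hx3, htr, htri, hns⟩ := exists_sp_three (F := F)
  obtain ⟨g, _, hg⟩ := hall x hx1 ⟨1, by rw [hx3, Units.val_one, one_smul]⟩ hns
  obtain ⟨y, hy⟩ : ∃ y, y = g⁻¹ * x * g := ⟨_, rfl⟩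
  rw [← hy] at hg
  have hy3 : y ^ 3 = 1 := by rw [hy, fwd2_conj_pow, hx3, mul_one, inv_mul_cancel]
  have hH := hG.H_of_pow y hg 3 (by decide) (by intro g'; rw [hy3, mul_one, one_mul])
  have hcount := hG.count y hg hH
  have ht1 : (y : Matrix (Fin 2 ⊕ Fin 2) (Fin 2 ⊕ Fin 2) F).trace = 1 := by
    rw [hy, fwd2_conj_trace]
    exact htr
  have ht2 : ((y⁻¹ : GL (Fin 2 ⊕ Fin 2) F) : Matrix (Fin 2 ⊕ Fin 2) (Fin 2 ⊕ Fin 2) F).trace
      = 1 := by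
    rw [hy, fwd2_conj_inv, fwd2_conj_trace]
    exact htri
  rw [ht1, ht2] at hcount
  rcases hG.card_three y hg hy3 with h | h | h
  · exact hG.no_three hK y hg hy3 h
  · rw [h] at hcount
    push_cast at hcount
    have e : (2 : F) * 3 = 0 := by linear_combination (-1 : F) * hcount
    exact absurd e (mul_ne_zero h2 h3)
  · obtain ⟨l, hl⟩ := hG.scalar_of_card y h
    rw [hy] at hl
    exact hns l (fwd2_conj_scalar g _ l hl)

/-- order five -/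
theorem fwd_five {R : Subgroup (GL (Fin 2 ⊕ Fin 2) F)} (hG : GoodM R)
    (h5 : (5 : F) ≠ 0) (τ : F) (hτ : τ * τ + τ - 1 = 0) (hall : AllFixM R 5) : False := by
  have h2 := hG.h2
  obtain ⟨x, hx1, hx5, htr, htri, hns⟩ := exists_sp_five τ hτ
  obtain ⟨g, _, hg⟩ := hall x hx1 ⟨1, by rw [hx5, Units.val_one, one_smul]⟩ hns
  obtain ⟨y, hy⟩ : ∃ y, y = g⁻¹ * x * g := ⟨_, rfl⟩
  rw [← hy] at hg
  have hy5 : y ^ 5 = 1 := by rw [hy, fwd2_conj_pow, hx5, mul_one, inv_mul_cancel]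
  have hH := hG.H_of_pow y hg 5 (by decide) (by intro g'; rw [hy5, mul_one, one_mul])
  have hcount := hG.count y hg hH
  have ht1 : (y : Matrix (Fin 2 ⊕ Fin 2) (Fin 2 ⊕ Fin 2) F).trace = τ + 2 := by
    rw [hy, fwd2_conj_trace]
    exact htr
  have ht2 : ((y⁻¹ : GL (Fin 2 ⊕ Fin 2) F) : Matrix (Fin 2 ⊕ Fin 2) (Fin 2 ⊕ Fin 2) F).trace
      = τ + 2 := by
    rw [hy, fwd2_conj_inv, fwd2_conj_trace]
    exact htri
  rw [ht1, ht2] at hcount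
  rcases hG.card_five y hg hy5 with h | h
  · rw [h] at hcount
    push_cast at hcount
    have e : (2 : F) * 5 = 0 := by
      linear_combination (3 * τ - 1) * hcount - (2 * (3 * τ - 1) + 18) * hτ
    exact absurd e (mul_ne_zero h2 h5)
  · obtain ⟨l, hl⟩ := hG.scalar_of_card y h
    rw [hy] at hl
    exact hns l (fwd2_conj_scalar g _ l hl)

end FWD2

end Cfsg.Agent.Lib.Helper98.SM
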