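import Cfsg.Agent.Lib.Helper98.T73Defs
import Cfsg.Prelude.Def_GeometricClasses
import Cfsg.Agent.Lib.Helper32.T73TYPC
import Cfsg.Agent.Lib.Helper90.T73SUMTS

/-!
# Project T73 (S5987, helper98), piece INVM (helper56)

An involution of `Ω⁻_{2k+2}(F)`, `F` of odd characteristic, fixes a totally singular `m`-space
for every `m ≤ k`.
-/

set_option autoImplicit false

namespace Cfsg.Agent.Lib.Helper98.T73

open Cfsg.Agent.Lib.Helper47 Module Polynomial
open Cfsg.Agent.Lib.Helper2.QuadMINUSTYP Cfsg.Agent.Lib.Helper5.QuadAC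
  Cfsg.Agent.Lib.Helper23.Quad Cfsg.Agent.Lib.Helper66.QuadSTD Cfsg.Agent.Lib.Helper78.Quad

universe u

variable {F : Type u} [Field F] [Fintype F]

omit [Fintype F] in
/-- the span of `w` distinct standard basis vectors -/
theorem invm_span_single {ι : Type} [Fintype ι] [DecidableEq ι] (w : ℕ) (f : Fin w → ι)
    (hf : Function.Injective f) :
    finrank F (Submodule.span F (Set.range (fun i : Fin w => (Pi.single (f i) (1 : F) : ι → F))))
        = w ∧
      ∀ u ∈ Submodule.span F (Set.range (fun i : Fin w => (Pi.single (f i) (1 : F) : ι → F))),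
        ∀ j, (∀ i, f i ≠ j) → u j = 0 := by
  constructor
  · have hli : LinearIndependent F (fun i : Fin w => (Pi.single (f i) (1 : F) : ι → F)) := by
      have h1 := (Pi.basisFun F ι).linearIndependent.comp f hf
      have h2 : ((Pi.basisFun F ι : ι → ι → F) ∘ f) = fun i : Fin w => Pi.single (f i) (1 : F) := by
        funext i
        simp only [Function.comp_apply, Pi.basisFun_apply]
      rw [h2] at h1
      exact h1
    rw [finrank_span_eq_card hli, Fintype.card_fin]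
  · intro u hu j hj
    induction hu using Submodule.span_induction with
    | mem x hx =>
      obtain ⟨i, rfl⟩ := hx
      exact Pi.single_eq_of_ne (hj i).symm _
    | zero => rfl
    | add x y _ _ hx hy => rw [Pi.add_apply, hx, hy, add_zero]
    | smul a x _ hx => rw [Pi.smul_apply, hx, smul_zero]

omit [Fintype F] in
/-- totally singular subspaces of the plus model -/
theorem invm_plus_ts (k w : ℕ) (hw : w ≤ k + 1) :
    ∃ U : Submodule F (Fin (k + 1) ⊕ Fin (k + 1) → F), finrank F U = w ∧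
      ∀ u ∈ U, Cfsg.quadFormPlus (k + 1) F u = 0 := by
  classical
  obtain ⟨h1, h2⟩ := invm_span_single (F := F) w
    (fun i => (Sum.inl (Fin.castLE hw i) : Fin (k + 1) ⊕ Fin (k + 1)))
    (Sum.inl_injective.comp (Fin.castLE_injective hw))
  refine ⟨_, h1, ?_⟩
  intro u hu
  unfold Cfsg.quadFormPlus
  exact Finset.sum_eq_zero (fun i _ => by
    rw [h2 u hu (Sum.inr i) (fun i' => by simp), mul_zero])

omit [Fintype F] in
/-- totally singular subspaces of the minus model -/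
theorem invm_minus_ts (k w : ℕ) (a c : F) (hw : w ≤ k) :
    ∃ U : Submodule F ((Fin k ⊕ Fin k) ⊕ Fin 2 → F), finrank F U = w ∧
      ∀ u ∈ U, Cfsg.quadFormMinus k F a c u = 0 := by
  classical
  obtain ⟨h1, h2⟩ := invm_span_single (F := F) w
    (fun i => (Sum.inl (Sum.inl (Fin.castLE hw i)) : (Fin k ⊕ Fin k) ⊕ Fin 2))
    (Sum.inl_injective.comp (Sum.inl_injective.comp (Fin.castLE_injective hw)))
  refine ⟨_, h1, ?_⟩
  intro u hu
  unfold Cfsg.quadFormMinus
  rw [h2 u hu (Sum.inr 0) (fun i' => by simp), h2 u hu (Sum.inr 1) (fun i' => by simp),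
    Finset.sum_eq_zero (fun i _ => by
      rw [h2 u hu (Sum.inl (Sum.inr i)) (fun i' => by simp), mul_zero])]
  ring

/-- totally singular subspaces of every dimension up to the Witt index (own copy of the piece
WIEX, so that this file does not depend on it) -/
theorem invm_wi_exists (hf : QFacts F) {V : Type u} [AddCommGroup V] [Module F V]
    [FiniteDimensional F V] {Q : V → F} {B : V → V → F} (hQ : IsQuad Q B) (hnd : Nondeg B)
    (k : ℕ) (hdim : finrank F V = 2 * k + 2) (ε : ℤ) (htyp : IsTyp Q k ε) (w : ℕ)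
    (hw : w ≤ wi k ε) : ∃ U : Submodule F V, finrank F U = w ∧ TS Q U := by
  classical
  obtain ⟨ε', hε', hε'typ⟩ := Cfsg.Agent.Lib.Helper29.QuadCONJ.typ_sign hf k V Q B hQ hnd hdim
  have hεε : ε = ε' := IsTyp.unique htyp hε'typ
  subst hεε
  rcases hε' with rfl | rfl
  · have hw' : w ≤ k + 1 := by
      unfold wi at hw
      rw [if_pos rfl] at hw
      exact hw
    obtain ⟨φ, hφ⟩ := hf.isometric k 1 (Fin (k + 1) ⊕ Fin (k + 1) → F) V
      (Cfsg.quadFormPlus (k + 1) F) (plusB (k + 1) F) Q B (quadFormPlus_isQuad (k + 1))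
      (plusB_nondeg (k + 1)) (by simp; ring) hQ hnd hdim (isTyp_quadFormPlus k) htyp
    obtain ⟨U₀, h1, h2⟩ := invm_plus_ts (F := F) k w hw'
    refine ⟨U₀.map (φ : _ →ₗ[F] V), ?_, ?_⟩
    · rw [LinearEquiv.finrank_map_eq, h1]
    · rintro _ ⟨u, hu, rfl⟩
      show Q (φ u) = 0
      rw [hφ]
      exact h2 u hu
  · have hw' : w ≤ k := by
      unfold wi at hw
      rw [if_neg (by norm_num)] at hw
      exact hw
    obtain ⟨a, c, hac⟩ := Cfsg.Agent.Lib.Helper4.Quad.exists_isAniso (F := F)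
    obtain ⟨φ, hφ⟩ := hf.isometric k (-1) ((Fin k ⊕ Fin k) ⊕ Fin 2 → F) V
      (Cfsg.quadFormMinus k F a c) (minusB k F a c) Q B (quadFormMinus_isQuad k a c)
      (minusB_nondeg k a c hac) (by simp; ring) hQ hnd hdim
      (isTyp_quadFormMinus_of k a c (fun Q₁ Q₂ _ _ _ _ h₁ h₂ => isTyp_prod Q₁ Q₂ h₁ h₂)
        isTyp_quadFormPlus (isTyp_aniso a c hac)) htyp
    obtain ⟨U₀, h1, h2⟩ := invm_minus_ts (F := F) k w a c hw'
    refine ⟨U₀.map (φ : _ →ₗ[F] V), ?_, ?_⟩
    · rw [LinearEquiv.finrank_map_eq, h1]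
    · rintro _ ⟨u, hu, rfl⟩
      show Q (φ u) = 0
      rw [hφ]
      exact h2 u hu

/-- the same inside a nondegenerate subspace -/
theorem invm_sub_wi_exists (hf : QFacts F) {V : Type u} [AddCommGroup V] [Module F V]
    [FiniteDimensional F V] {Q : V → F} {B : V → V → F} (hQ : IsQuad Q B)
    (K : Submodule F V) (e : ℕ) (η : ℤ) (hK : SubTyp Q B K e η) (w : ℕ) (hw : w ≤ wi e η) :
    ∃ U : Submodule F V, U ≤ K ∧ finrank F U = w ∧ TS Q U := by
  obtain ⟨hnd, hdim, htyp⟩ := hK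
  obtain ⟨U₀, hU₀, hU₀ts⟩ := invm_wi_exists hf (hQ.res K) hnd e hdim η htyp w hw
  refine ⟨U₀.map K.subtype, ?_, ?_, ?_⟩
  · rintro _ ⟨u, -, rfl⟩
    exact u.2
  · rw [← hU₀]
    exact (LinearEquiv.finrank_eq
      (Submodule.equivMapOfInjective K.subtype K.injective_subtype U₀)).symm
  · rintro _ ⟨u, hu, rfl⟩
    exact hU₀ts u hu

/-- INVM, abstract core: an involutory isometry of determinant one of a quadratic space of
dimension `2k+2` and type `-1` fixes a totally singular `m`-space for all `m ≤ k`. -/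
theorem invm_core (hf : QFacts F) (h2 : (2 : F) ≠ 0) (p : ℕ) [Fact p.Prime] [CharP F p]
    {V : Type u} [AddCommGroup V] [Module F V] [FiniteDimensional F V] {Q : V → F}
    {B : V → V → F} (hQ : IsQuad Q B) (hnd : Nondeg B) (k : ℕ)
    (hdim : finrank F V = 2 * k + 2) (htyp : IsTyp Q k (-1))
    (hW : ∀ w, w ≤ k → ∃ U : Submodule F V, finrank F U = w ∧ TS Q U)
    (hsW : ∀ (K : Submodule F V) (e : ℕ) (η : ℤ), SubTyp Q B K e η → ∀ w, w ≤ wi e η →
      ∃ U : Submodule F V, U ≤ K ∧ finrank F U = w ∧ TS Q U)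
    (g : Module.End F V) (hgQ : QI Q g) (hg : g ^ 2 = 1) (hdet : LinearMap.det g = 1)
    (m : ℕ) (hm : m ≤ k) :
    ∃ W : Submodule F V, finrank F W = m ∧ TS Q W ∧ W.map g ≤ W := by
  have hrF : ((2 : ℕ) : F) ≠ 0 := by
    rw [Nat.cast_ofNat]
    exact h2
  have h2p : (2 : ℕ) ≠ p := by
    rintro rfl
    apply h2
    have h0 := CharP.cast_eq_zero F 2
    rw [Nat.cast_ofNat] at h0
    exact h0
  have hB := hQ.form
  have hgi : ∀ x y, B (g x) (g y) = B x y := hQ.isometry hQ g hgQ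
  have hndR := nondeg_res_range hB hnd g hgi 2 hrF hg
  have hndC := typc_nondeg_ker hB hnd g hgi 2 hrF hg
  have hcompl := isCompl_ker_range g 2 hrF hg
  have hsum := Submodule.finrank_add_eq_of_isCompl hcompl
  have hfixC : ∀ c ∈ LinearMap.ker (g - 1), g c = c := fun c hc => (mem_ker_sub_one g c).1 hc
  have hgg : ∀ v, g (g v) = v := by
    intro v
    have h1 := LinearMap.congr_fun hg v
    rw [pow_two, Module.End.mul_apply, Module.End.one_apply] at h1
    exact h1
  have hnegR : ∀ w ∈ LinearMap.range (g - 1), g w = -w := by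
    rintro _ ⟨v, rfl⟩
    rw [LinearMap.sub_apply, Module.End.one_apply, map_sub, hgg]
    abel
  -- the parity of `finrank (range (g - 1))`
  have hpar : Even (finrank F (LinearMap.range (g - 1))) := by
    have e1 : g = ((Submodule.prodEquivOfIsCompl _ _ hcompl : _ ≃ₗ[F] V) : _ →ₗ[F] V) ∘ₗ
        (LinearMap.prodMap (LinearMap.id : ↥(LinearMap.ker (g - 1)) →ₗ[F] _)
          ((-1 : F) • (LinearMap.id : ↥(LinearMap.range (g - 1)) →ₗ[F] _))) ∘ₗ
        ((Submodule.prodEquivOfIsCompl _ _ hcompl).symm : V →ₗ[F] _) := by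
      apply LinearMap.ext
      intro v
      obtain ⟨y, rfl⟩ := (Submodule.prodEquivOfIsCompl _ _ hcompl).surjective v
      rw [LinearMap.comp_apply, LinearMap.comp_apply, LinearEquiv.coe_coe, LinearEquiv.coe_coe,
        LinearEquiv.symm_apply_apply, Submodule.coe_prodEquivOfIsCompl', map_add,
        hfixC _ y.1.2, hnegR _ y.2.2, Submodule.coe_prodEquivOfIsCompl']
      simp
    have e2 := LinearMap.det_conj
      (LinearMap.prodMap (LinearMap.id : ↥(LinearMap.ker (g - 1)) →ₗ[F] _)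
        ((-1 : F) • (LinearMap.id : ↥(LinearMap.range (g - 1)) →ₗ[F] _)))
      (Submodule.prodEquivOfIsCompl _ _ hcompl)
    rw [← e1, hdet, LinearMap.det_prodMap, LinearMap.det_id, LinearMap.det_smul,
      LinearMap.det_id, one_mul, mul_one] at e2
    by_contra hodd
    rw [Nat.not_even_iff_odd] at hodd
    rw [hodd.neg_one_pow] at e2
    exact h2 (by linear_combination e2)
  by_cases hR0 : finrank F (LinearMap.range (g - 1)) = 0
  · have hRbot : LinearMap.range (g - 1) = ⊥ := Submodule.finrank_eq_zero.1 hR0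
    have hg1 : ∀ v, g v = v := by
      intro v
      have h1 : (g - 1) v ∈ LinearMap.range (g - 1) := LinearMap.mem_range_self _ v
      rw [hRbot, Submodule.mem_bot, LinearMap.sub_apply, Module.End.one_apply, sub_eq_zero] at h1
      exact h1
    obtain ⟨U, hU, hUts⟩ := hW m hm
    refine ⟨U, hU, hUts, ?_⟩
    rintro _ ⟨u, hu, rfl⟩
    rw [hg1]
    exact hu
  by_cases hC0 : finrank F (LinearMap.ker (g - 1)) = 0
  · have hCbot : LinearMap.ker (g - 1) = ⊥ := Submodule.finrank_eq_zero.1 hC0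
    have hRtop : LinearMap.range (g - 1) = ⊤ := by
      have h1 := hcompl.sup_eq_top
      rw [hCbot, bot_sup_eq] at h1
      exact h1
    have hgn : ∀ v, g v = -v := fun v => hnegR v (by rw [hRtop]; exact Submodule.mem_top)
    obtain ⟨U, hU, hUts⟩ := hW m hm
    refine ⟨U, hU, hUts, ?_⟩
    rintro _ ⟨u, hu, rfl⟩
    rw [hgn]
    exact U.neg_mem hu
  obtain ⟨j', hj'⟩ := hpar
  have hCpar : Even (finrank F (LinearMap.ker (g - 1))) := by
    have h1 : Even (finrank F ↥(LinearMap.ker (g - 1)) + finrank F ↥(LinearMap.range (g - 1))) := by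
      rw [hsum, hdim]
      exact ⟨k + 1, by ring⟩
    exact (Nat.even_add.1 h1).2 ⟨j', hj'⟩
  obtain ⟨e', he'⟩ := hCpar
  have he : finrank F (LinearMap.ker (g - 1)) = 2 * (e' - 1) + 2 := by omega
  have hj : finrank F (LinearMap.range (g - 1)) = 2 * (j' - 1) + 2 := by omega
  obtain ⟨η, hη, hηtyp⟩ := Cfsg.Agent.Lib.Helper29.QuadCONJ.typ_sign hf (e' - 1)
    (LinearMap.ker (g - 1)) (fun w => Q (w : V)) (resForm B _) (hQ.res _) hndC he
  obtain ⟨θ, hθ, hθtyp⟩ := Cfsg.Agent.Lib.Helper29.QuadCONJ.typ_sign hf (j' - 1)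
    (LinearMap.range (g - 1)) (fun w => Q (w : V)) (resForm B _) (hQ.res _) hndR hj
  have : Finite V := Module.finite_of_finite F
  have hprod := hf.typ_prod (fun w : LinearMap.ker (g - 1) => Q (w : V))
    (fun w : LinearMap.range (g - 1) => Q (w : V)) hηtyp hθtyp
  have hV : IsTyp Q ((e' - 1) + (j' - 1) + 1) (η * θ) :=
    IsTyp.of_equiv (Submodule.prodEquivOfIsCompl _ _ hcompl).toEquiv (fun v => by
      rw [LinearEquiv.coe_toEquiv, Submodule.coe_prodEquivOfIsCompl']
      exact typc_Q_add hQ g hgi _ ((mem_ker_sub_one g _).mp v.1.2) _ v.2.2) hprod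
  have hk : k = (e' - 1) + (j' - 1) + 1 := by
    rw [hdim] at hsum
    omega
  rw [hk] at htyp
  have hε : (-1 : ℤ) = η * θ := IsTyp.unique htyp hV
  have hwsum : wi (e' - 1) η + wi (j' - 1) θ = k := by
    unfold wi
    rcases hη with rfl | rfl <;> rcases hθ with rfl | rfl
    · norm_num at hε
    · simp only [if_true]
      rw [if_neg (by norm_num)]
      omega
    · simp only [if_true]
      rw [if_neg (by norm_num)]
      omega
    · norm_num at hε
  have hw1a : min m (wi (e' - 1) η) ≤ wi (e' - 1) η := min_le_right _ _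
  have hw1b : m - min m (wi (e' - 1) η) ≤ wi (j' - 1) θ := by
    rcases le_total m (wi (e' - 1) η) with h | h
    · rw [min_eq_left h]
      omega
    · rw [min_eq_right h]
      omega
  have hw1c : (m - min m (wi (e' - 1) η)) + min m (wi (e' - 1) η) = m :=
    Nat.sub_add_cancel (min_le_left _ _)
  obtain ⟨U', hU'C, hU'dim, hU'ts⟩ := hsW (LinearMap.ker (g - 1)) (e' - 1) η ⟨hndC, he, hηtyp⟩
    (min m (wi (e' - 1) η)) hw1a
  obtain ⟨U, hUR, hUdim, hUts⟩ := hsW (LinearMap.range (g - 1)) (j' - 1) θ ⟨hndR, hj, hθtyp⟩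
    (m - min m (wi (e' - 1) η)) hw1b
  have hUg : U.map g ≤ U := by
    rintro _ ⟨u, hu, rfl⟩
    rw [hnegR u (hUR hu)]
    exact U.neg_mem hu
  obtain ⟨h1, h2', h3⟩ := sum_ts hQ p 2 Nat.prime_two h2p g hgQ hg U U' hUR hU'C hUg hUts hU'ts
  refine ⟨U ⊔ U', ?_, h1, h2'⟩
  rw [h3, hUdim, hU'dim]
  exact hw1c

/-- INVM -/
theorem invol_fix_minus (h2 : (2 : F) ≠ 0) (k m : ℕ) (a b : F)
    (hab : ∀ x y : F, x ^ 2 + a * x * y + b * y ^ 2 = 0 → x = 0 ∧ y = 0) (hm : m ≤ k)
    (x : GL ((Fin k ⊕ Fin k) ⊕ Fin 2) F)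
    (hx : x ∈ Cfsg.Geo.omegaGL (Cfsg.quadFormMinus k F a b)) (hx2 : x * x = 1) :
    ∃ W : Submodule F ((Fin k ⊕ Fin k) ⊕ Fin 2 → F), finrank F W = m ∧
      (∀ w ∈ W, Cfsg.quadFormMinus k F a b w = 0) ∧
      W.map (Matrix.toLin' (x : Matrix ((Fin k ⊕ Fin k) ⊕ Fin 2) ((Fin k ⊕ Fin k) ⊕ Fin 2) F))
        ≤ W := by
  classical
  obtain ⟨p, hp⟩ := CharP.exists F
  have := hp
  have : Fact p.Prime := ⟨CharP.char_is_prime F p⟩
  have hf : QFacts F := qfacts p
  have hQ := quadFormMinus_isQuad (F := F) k a b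
  have hnd := minusB_nondeg k a b hab
  have htyp : IsTyp (Cfsg.quadFormMinus k F a b) k (-1) :=
    isTyp_quadFormMinus_of k a b (fun Q₁ Q₂ _ _ _ _ h₁ h₂ => isTyp_prod Q₁ Q₂ h₁ h₂)
      isTyp_quadFormPlus (isTyp_aniso a b hab)
  have hdim : finrank F ((Fin k ⊕ Fin k) ⊕ Fin 2 → F) = 2 * k + 2 := by
    simp
    ring
  have hiso : ∀ v, Cfsg.quadFormMinus k F a b
      ((x : Matrix ((Fin k ⊕ Fin k) ⊕ Fin 2) ((Fin k ⊕ Fin k) ⊕ Fin 2) F).mulVec v)
        = Cfsg.quadFormMinus k F a b v := by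
    obtain ⟨g, -, hgx⟩ := hx
    intro v
    rw [← hgx]
    exact g.2 v v
  have hdetx : (x : Matrix ((Fin k ⊕ Fin k) ⊕ Fin 2) ((Fin k ⊕ Fin k) ⊕ Fin 2) F).det = 1 := by
    obtain ⟨g, hg, hgx⟩ := hx
    have hker := Abelianization.commutator_subset_ker
      (Matrix.GeneralLinearGroup.det.comp
        (Cfsg.isometryGroup F (Cfsg.quadFormMinus k F a b)).subtype) hg
    rw [MonoidHom.mem_ker, MonoidHom.comp_apply, hgx] at hker
    have h1 := congrArg Units.val hker
    rw [Matrix.GeneralLinearGroup.val_det_apply, Units.val_one] at h1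
    exact h1
  have hgQ : QI (Cfsg.quadFormMinus k F a b)
      (Matrix.toLin' (x : Matrix ((Fin k ⊕ Fin k) ⊕ Fin 2) ((Fin k ⊕ Fin k) ⊕ Fin 2) F)) := by
    intro v
    rw [Matrix.toLin'_apply]
    exact hiso v
  have hg : (Matrix.toLin' (x : Matrix ((Fin k ⊕ Fin k) ⊕ Fin 2) ((Fin k ⊕ Fin k) ⊕ Fin 2) F)
      : Module.End F ((Fin k ⊕ Fin k) ⊕ Fin 2 → F)) ^ 2 = 1 := by
    rw [pow_two, Module.End.mul_eq_comp, ← Matrix.toLin'_mul, ← Units.val_mul, hx2, Units.val_one,
      Matrix.toLin'_one]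
    rfl
  have hdet : LinearMap.det
      (Matrix.toLin' (x : Matrix ((Fin k ⊕ Fin k) ⊕ Fin 2) ((Fin k ⊕ Fin k) ⊕ Fin 2) F)) = 1 := by
    rw [LinearMap.det_toLin']
    exact hdetx
  exact invm_core hf h2 p hQ hnd k hdim htyp
    (fun w hw => invm_wi_exists hf hQ hnd k hdim (-1) htyp w (by
      unfold wi
      rw [if_neg (by norm_num)]
      exact hw))
    (fun K e η hK w hw => invm_sub_wi_exists hf hQ K e η hK w hw) _ hgQ hg hdet m hm

end Cfsg.Agent.Lib.Helper98.T73
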