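import Cfsg.Agent.Lib.Helper56.TT
import Cfsg.Agent.Lib.Helper91.Width1
import Cfsg.Agent.S5346
import Mathlib

set_option autoImplicit false
open Cfsg

namespace Cfsg.Agent.Lib.Helper56

section TT2

variable {G : Type*} [Group G] {D : Set G}

def ttDd (D : Set G) (x : G) : Set G := {y | y ∈ D ∧ y ≠ x ∧ Commute x y}

def ttW (D : Set G) (d : G) : Set G := {w | w ∈ D ∧ ttDd D d = ttDd D w}

theorem ttDd_conj (hC : ∀ g : G, ∀ d ∈ D, g * d * g⁻¹ ∈ D) (g x y : G) :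
    y ∈ ttDd D (g * x * g⁻¹) ↔ g⁻¹ * y * g ∈ ttDd D x := by
  constructor
  · rintro ⟨hy, hne, hc⟩
    refine ⟨tt_conj_mem' hC g hy, ?_, (tt_commute_conj_iff g x y).mp hc⟩
    intro h
    apply hne
    rw [← h]; group
  · rintro ⟨hy, hne, hc⟩
    refine ⟨?_, ?_, (tt_commute_conj_iff g x y).mpr hc⟩
    · have := hC g _ hy
      have e : g * (g⁻¹ * y * g) * g⁻¹ = y := by group
      rwa [e] at this
    · intro h
      apply hne
      rw [h]; group

theorem ttW_eq_of_commute {d w : G} (hw : w ∈ ttW D d) (hc : Commute d w) : w = d := by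
  by_contra hne
  have h1 : w ∈ ttDd D d := ⟨hw.1, hne, hc⟩
  rw [hw.2] at h1
  exact h1.2.1 rfl

theorem ttW_symm {d v : G} (hd : d ∈ D) (hv : v ∈ ttW D d) : d ∈ ttW D v := ⟨hd, hv.2.symm⟩

theorem ttW_trans {d u v : G} (hu : u ∈ ttW D v) (hv : v ∈ ttW D d) : u ∈ ttW D d :=
  ⟨hu.1, hv.2.trans hu.2⟩

theorem ttW_conj (hC : ∀ g : G, ∀ d ∈ D, g * d * g⁻¹ ∈ D) (g : G) {d v : G}
    (hv : v ∈ ttW D d) : g * v * g⁻¹ ∈ ttW D (g * d * g⁻¹) := by
  refine ⟨hC g v hv.1, ?_⟩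
  ext y
  rw [ttDd_conj hC, ttDd_conj hC, hv.2]

theorem ttW_conj_mem (hC : ∀ g : G, ∀ d ∈ D, g * d * g⁻¹ ∈ D) {d u w : G} (hd : d ∈ D)
    (hu : u ∈ ttW D d) (hw : w ∈ ttW D d) : w * u * w⁻¹ ∈ ttW D d := by
  have h1 : u ∈ ttW D w := ttW_trans hu (ttW_symm hd hw)
  have h2 := ttW_conj hC w h1
  have e : w * w * w⁻¹ = w := by group
  rw [e] at h2
  exact ttW_trans h2 hw

theorem ttW_block (hS : IsThreeTranspositionSet D)
    (hC : ∀ g : G, ∀ d ∈ D, g * d * g⁻¹ ∈ D) : TTBlock D (ttW D) := by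
  have hsymm : ∀ d ∈ D, ∀ v ∈ ttW D d, d ∈ ttW D v := fun d hd v hv => ttW_symm hd hv
  have hconj : ∀ (g d v : G), v ∈ ttW D d → g * v * g⁻¹ ∈ ttW D (g * d * g⁻¹) :=
    fun g d v hv => ttW_conj hC g hv
  refine ⟨fun d v hv => hv.1, fun d hd => ⟨hd, rfl⟩, hsymm,
    fun d u v hu hv => ttW_trans hu hv, hconj, ?_⟩
  intro d hd w hw x hx
  have hdd : d ∈ ttW D d := ⟨hd, rfl⟩
  by_cases hxd : x = d
  · subst hxd
    have h1 := ttW_conj_mem hC hx hdd hw
    have h2 := ttW_conj_mem hC hx h1 hdd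
    have e : x * w * x * (x * w)⁻¹ = x * (w * x * w⁻¹) * x⁻¹ := by group
    rw [e]; exact h2
  by_cases hxw : x = w
  · subst hxw
    have h1 := ttW_conj_mem hC hd hw hdd
    have e : d * x * x * (d * x)⁻¹ = d * x * d⁻¹ := by group
    rw [e]
    exact ttW_trans h1 (ttW_symm hd hw)
  by_cases hc : Commute d x
  · have h1 : x ∈ ttDd D d := ⟨hx, hxd, hc⟩
    rw [hw.2] at h1
    have : (d * w) * x * (d * w)⁻¹ = x := tt_comm_conj (hc.mul_left h1.2.2)
    rw [this]; exact ⟨hx, rfl⟩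
  · have hc' : ¬ Commute w x := by
      intro h
      have h1 : x ∈ ttDd D w := ⟨hx, hxw, h⟩
      rw [← hw.2] at h1
      exact hc h1.2.2
    exact tt_gen_braid hS hC hsymm hconj hd hw.1 hx hw (fun h => hc h.symm)
      (fun h => hc' h.symm)

theorem ttW_closure_conj (hS : IsThreeTranspositionSet D)
    (hC : ∀ g : G, ∀ d ∈ D, g * d * g⁻¹ ∈ D) {a : G} (ha : a ∈ D) :
    ∀ g ∈ Subgroup.closure (ttW D a), ∀ u ∈ ttW D a,
      g * u * g⁻¹ ∈ ttW D a ∧ g⁻¹ * u * g ∈ ttW D a := by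
  intro g hg
  induction hg using Subgroup.closure_induction with
  | mem w hw =>
    intro u hu
    have h1 := ttW_conj_mem hC ha hu hw
    refine ⟨h1, ?_⟩
    rw [tt_inv hS hw.1] at h1 ⊢
    exact h1
  | one =>
    intro u hu
    simp only [one_mul, inv_one, mul_one]
    exact ⟨hu, hu⟩
  | mul r s _ _ hr hs =>
    intro u hu
    constructor
    · have e1 : r * s * u * (r * s)⁻¹ = r * (s * u * s⁻¹) * r⁻¹ := by group
      rw [e1]; exact (hr _ (hs u hu).1).1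
    · have e1 : (r * s)⁻¹ * u * (r * s) = s⁻¹ * (r⁻¹ * u * r) * s := by group
      rw [e1]; exact (hs _ (hr u hu).2).2
  | inv r _ hr =>
    intro u hu
    refine ⟨?_, ?_⟩
    · have := (hr u hu).2
      simpa using this
    · have := (hr u hu).1
      simpa using this

theorem ttW_sub_group (hS : IsThreeTranspositionSet D)
    (hC : ∀ g : G, ∀ d ∈ D, g * d * g⁻¹ ∈ D) {a : G} (ha : a ∈ D) :
    IsThreeTranspositionGroup {h : Subgroup.closure (ttW D a) | (h : G) ∈ ttW D a} := by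
  refine ⟨⟨?_, ?_⟩, ?_, ?_⟩
  · intro h hh
    rw [← Subgroup.orderOf_coe]
    exact hS.1 _ hh.1
  · intro h hh k hk
    rcases hS.2 (h : G) hh.1 (k : G) hk.1 with h2 | h3
    · left; apply Subtype.ext; simpa using h2
    · right; apply Subtype.ext; simpa using h3
  · intro g u hu
    have := (ttW_closure_conj hS hC ha g g.2 u hu).1
    show ((g * u * g⁻¹ : Subgroup.closure (ttW D a)) : G) ∈ ttW D a
    simpa using this
  · exact Subgroup.closure_closure_coe_preimage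

theorem tt_sq_mem_of_sup_top {H : Type*} [Group H] {P : Subgroup H} (hP : P.Normal) {a : H}
    (haa : a * a = 1) (htop : Subgroup.zpowers a ⊔ P = ⊤) (x : H) : x ^ 2 ∈ P := by
  have hx : x ∈ Subgroup.zpowers a ⊔ P := by rw [htop]; trivial
  have _hP' := hP
  rw [← SetLike.mem_coe, Subgroup.mul_normal] at hx
  obtain ⟨z, hz, n, hn, rfl⟩ := Set.mem_mul.mp hx
  obtain ⟨k, rfl⟩ := Subgroup.mem_zpowers_iff.mp hz
  have hzz : a ^ k * a ^ k = 1 := by
    rw [← zpow_add, ← two_mul, zpow_mul, zpow_two, haa, one_zpow]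
  have e : (a ^ k * n) ^ 2 = (a ^ k * n * (a ^ k)⁻¹) * (a ^ k * a ^ k) * n := by
    rw [sq]; group
  rw [e, hzz, mul_one]
  exact mul_mem (hP.conj_mem n hn _) hn

theorem ttW_E_pgroup [Finite G] (hS : IsThreeTranspositionSet D)
    (hC : ∀ g : G, ∀ d ∈ D, g * d * g⁻¹ ∈ D) {a : G} (ha : a ∈ D) :
    IsPGroup 3 (Subgroup.closure {t : G | ∃ b ∈ ttW D a, t = a * b}) := by
  haveI : Fact (Nat.Prime 3) := ⟨Nat.prime_three⟩
  have hB := ttW_block hS hC
  have haW : a ∈ ttW D a := hB.refl a ha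
  have hD' := ttW_sub_group hS hC ha
  have hw1 : commutingWidth {h : Subgroup.closure (ttW D a) | (h : G) ∈ ttW D a} = 1 := by
    rw [Cfsg.Agent.Lib.Helper91.width_iff ⟨⟨a, Subgroup.subset_closure haW⟩, haW⟩]
    intro x hx y hy hc
    apply Subtype.ext
    have hyx : (y : G) ∈ ttW D (x : G) := ttW_trans hy (ttW_symm ha hx)
    have hc' : Commute (x : G) (y : G) := by
      have := congrArg Subtype.val hc.eq
      exact this
    exact (ttW_eq_of_commute hyx hc').symm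
  have htop := (Cfsg.Agent.S5346.result hD' (d := ⟨a, Subgroup.subset_closure haW⟩) haW).mp hw1
  have hP : (Cfsg.pCore 3 (Subgroup.closure (ttW D a))).Normal := pCore_normal' 3 _
  have haa : (⟨a, Subgroup.subset_closure haW⟩ : Subgroup.closure (ttW D a)) *
      ⟨a, Subgroup.subset_closure haW⟩ = 1 := Subtype.ext (tt_sq hS ha)
  have hsq := tt_sq_mem_of_sup_top hP haa htop
  have hle : Subgroup.closure {t : G | ∃ b ∈ ttW D a, t = a * b} ≤
      Cfsg.pCoreOf 3 (Subgroup.closure (ttW D a)) := by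
    rw [Subgroup.closure_le]
    rintro t ⟨b, hb, rfl⟩
    rw [SetLike.mem_coe, mem_pCoreOf_iff]
    have hmem : a * b ∈ Subgroup.closure (ttW D a) :=
      mul_mem (Subgroup.subset_closure haW) (Subgroup.subset_closure hb)
    refine ⟨hmem, ?_⟩
    by_cases hc : Commute a b
    · have hba : b = a := ttW_eq_of_commute hb hc
      have e : (⟨a * b, hmem⟩ : Subgroup.closure (ttW D a)) = 1 := by
        apply Subtype.ext
        show a * b = 1
        rw [hba]; exact tt_sq hS ha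
      rw [e]; exact one_mem _
    · have h3 : (a * b) ^ 3 = 1 := tt_cube hS ha hb.1 hc
      have h4 : (⟨a * b, hmem⟩ : Subgroup.closure (ttW D a)) =
          ((⟨a * b, hmem⟩ : Subgroup.closure (ttW D a)) ^ 2) ^ 2 := by
        apply Subtype.ext
        have e4 : ((⟨a * b, hmem⟩ : Subgroup.closure (ttW D a)) ^ 2) ^ 2 =
            (⟨a * b, hmem⟩ : Subgroup.closure (ttW D a)) ^ 4 := by rw [← pow_mul]
        rw [e4, Subgroup.coe_pow]
        show a * b = (a * b) ^ (3 + 1)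
        rw [pow_succ, h3, one_mul]
      rw [h4]
      exact pow_mem (hsq _) 2
  exact (pCoreOf_isPGroup 3 _).to_le hle

theorem tt_W_mem_pCore [Finite G] (hS : IsThreeTranspositionSet D)
    (hC : ∀ g : G, ∀ d ∈ D, g * d * g⁻¹ ∈ D) {d w : G} (hd : d ∈ D) (hw : w ∈ ttW D d) :
    d * w ∈ Cfsg.pCore 3 G := by
  haveI : Fact (Nat.Prime 3) := ⟨Nat.prime_three⟩
  exact tt_block_mem_pCore hS hC (ttW_block hS hC) 3 (fun a ha => ttW_E_pgroup hS hC ha)
    d hd w hw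

theorem tt_not_mem_pcore3 [Finite G] (hS : IsThreeTranspositionSet D) {d y : G} (hd : d ∈ D)
    (hy : y ∈ D) (hne : y ≠ d) (hc : Commute d y) : d⁻¹ * y ∉ Cfsg.pCore 3 G := by
  haveI : Fact (Nat.Prime 3) := ⟨Nat.prime_three⟩
  intro hmem
  have hOp : IsPGroup 3 (Cfsg.pCore 3 G) := pCore_isPGroup' 3
  have h2 : (d⁻¹ * y) ^ 2 = 1 := by
    rw [tt_inv hS hd]; exact tt_sq_mul_of_commute hS hd hy hc
  have h1 := tt_eq_one_of_pgroup (by norm_num : Nat.Coprime 3 2) hOp hmem h2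
  exact hne (inv_mul_eq_one.mp h1).symm

theorem tt_W_of_pcore_aux [Finite G] (hS : IsThreeTranspositionSet D) {d w : G} (hd : d ∈ D)
    (hw : w ∈ D) (hdw : d⁻¹ * w ∈ Cfsg.pCore 3 G) : ttDd D d ⊆ ttDd D w := by
  have hO : (Cfsg.pCore 3 G).Normal := pCore_normal' 3 G
  rintro y ⟨hy, hne, hc⟩
  have hyw : y ≠ w := by
    rintro rfl
    exact tt_not_mem_pcore3 hS hd hy hne hc hdw
  refine ⟨hy, hyw, ?_⟩
  by_contra hnc
  have h3 : (w * y) ^ 3 = 1 := tt_cube hS hw hy hnc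
  have h2 : (w * y) ^ 2 ∈ Cfsg.pCore 3 G :=
    tt_sq_mem_of_coset hO hdw (tt_sq_mul_of_commute hS hd hy hc)
  have h4 : w * y = ((w * y) ^ 2) ^ 2 := by
    rw [← pow_mul]
    show w * y = (w * y) ^ (3 + 1)
    rw [pow_succ, h3, one_mul]
  have h5 : w * y ∈ Cfsg.pCore 3 G := by rw [h4]; exact pow_mem h2 2
  have h6 : d⁻¹ * y ∈ Cfsg.pCore 3 G := by
    have := mul_mem hdw h5
    have e : d⁻¹ * w * (w * y) = d⁻¹ * y := by
      rw [mul_assoc, ← mul_assoc w w y, tt_sq hS hw, one_mul]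
    rwa [e] at this
  exact tt_not_mem_pcore3 hS hd hy hne hc h6

theorem tt_W_of_pcore [Finite G] (hS : IsThreeTranspositionSet D) {d w : G} (hd : d ∈ D)
    (hw : w ∈ D) (hdw : d⁻¹ * w ∈ Cfsg.pCore 3 G) : w ∈ ttW D d := by
  have hwd : w⁻¹ * d ∈ Cfsg.pCore 3 G := by
    have := inv_mem hdw
    simpa [mul_inv_rev] using this
  exact ⟨hw, Set.Subset.antisymm (tt_W_of_pcore_aux hS hd hw hdw)
    (tt_W_of_pcore_aux hS hw hd hwd)⟩

/-- the statement S5350 -/
theorem tt_W_main [Finite G] (hD : Cfsg.IsThreeTranspositionClass D) {d : G} (hd : d ∈ D) :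
    {w : G | w ∈ D ∧ {y : G | y ∈ D ∧ y ≠ d ∧ Commute d y} =
          {y : G | y ∈ D ∧ y ≠ w ∧ Commute w y}} =
        {w : G | w ∈ D ∧ d⁻¹ * w ∈ Cfsg.pCore 3 G} ∧
      {w : G | w ∈ D ∧ {y : G | y ∈ D ∧ y ≠ d ∧ Commute d y} =
          {y : G | y ∈ D ∧ y ≠ w ∧ Commute w y}} =
        {w : G | ∃ g ∈ Cfsg.pCore 3 G, w = g * d * g⁻¹} := by
  have hG := tt_group_of_class hD
  have hS := hG.1
  have hC := hG.2.1
  have hO : (Cfsg.pCore 3 G).Normal := pCore_normal' 3 G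
  refine ⟨?_, ?_⟩
  · ext w
    constructor
    · intro hw
      have hw' : w ∈ ttW D d := hw
      refine ⟨hw.1, ?_⟩
      rw [tt_inv hS hd]
      exact tt_W_mem_pCore hS hC hd hw'
    · rintro ⟨hw, hdw⟩
      exact tt_W_of_pcore hS hd hw hdw
  · ext w
    constructor
    · intro hw
      have hw' : w ∈ ttW D d := hw
      by_cases hc : Commute d w
      · have hwd : w = d := ttW_eq_of_commute hw' hc
        refine ⟨1, one_mem _, ?_⟩
        rw [hwd]; simp
      · refine ⟨d * w, tt_W_mem_pCore hS hC hd hw', ?_⟩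
        have hb : w * d * w⁻¹ = d * w * d⁻¹ := tt_braid hS hw.1 hd (fun h => hc h.symm)
        symm
        calc d * w * d * (d * w)⁻¹ = d * (w * d * w⁻¹) * d⁻¹ := by group
          _ = d * (d * w * d⁻¹) * d⁻¹ := by rw [hb]
          _ = (d * d) * w * (d * d)⁻¹ := by group
          _ = w := by rw [tt_sq hS hd]; simp
    · rintro ⟨g, hg, rfl⟩
      have h1 : d⁻¹ * (g * d * g⁻¹) ∈ Cfsg.pCore 3 G := by
        have := mul_mem (hO.conj_mem g hg d⁻¹) (inv_mem hg)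
        have e : d⁻¹ * (g * d * g⁻¹) = d⁻¹ * g * d⁻¹⁻¹ * g⁻¹ := by group
        rw [e]; exact this
      exact tt_W_of_pcore hS hd (hC g d hd) h1

end TT2

end Cfsg.Agent.Lib.Helper56
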