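import Cfsg.Agent.Lib.Helper56.TT
import Cfsg.Agent.S5344
import Mathlib

set_option autoImplicit false
open Cfsg

namespace Cfsg.Agent.Lib.Helper56

section TT3

variable {G : Type*} [Group G] {D : Set G}

/-- for commuting `a ≠ a'` in `D` and `y` in `D` commuting with neither, the conjugate of `y` by
`a a'` is different from `y` and commutes with it -/
theorem tt_klein_conj (hS : IsThreeTranspositionSet D) {a a' y : G} (ha : a ∈ D) (ha' : a' ∈ D)
    (hy : y ∈ D) (hne : a ≠ a') (hc : Commute a a') (hay : ¬ Commute a y)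
    (hya' : ¬ Commute y a') :
    (a * a') * y * (a * a')⁻¹ ≠ y ∧ Commute y ((a * a') * y * (a * a')⁻¹) := by
  obtain ⟨φ, hinj, h01, h12, h23⟩ := Cfsg.Agent.S5344.result hS ha hy ha' hne hc hay hya'
  have hz : (a * a') * y * (a * a')⁻¹ =
      φ ((Equiv.swap 0 1 * Equiv.swap 2 3) * Equiv.swap 1 2 *
        (Equiv.swap 0 1 * Equiv.swap 2 3)⁻¹) := by
    rw [← h01, ← h12, ← h23]
    simp only [map_mul, map_inv]
  rw [hz]
  constructor
  · rw [← h12]
    apply hinj.ne
    decide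
  · rw [← h12]
    have h : Commute (Equiv.swap 1 2 : Equiv.Perm (Fin 4))
        ((Equiv.swap 0 1 * Equiv.swap 2 3) * Equiv.swap 1 2 *
          (Equiv.swap 0 1 * Equiv.swap 2 3)⁻¹) := by
      show _ * _ = _ * _
      decide
    exact h.map φ

/-- the statement S5355 -/
theorem tt_S4_main (hD : Cfsg.IsThreeTranspositionClass D)
    (hD2 : ∃ a ∈ D, ∃ b ∈ D, a ≠ b) {d : G} (hd : d ∈ D)
    (hV : {y : G | y ∈ D ∧ Commute d y} = {v : G | v ∈ D ∧ ∀ e ∈ D, Commute v e ↔ Commute d e})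
    (hm : {y : G | y ∈ D ∧ Commute d y}.ncard = 2) : Nonempty (G ≃* Equiv.Perm (Fin 4)) := by
  have hG := tt_group_of_class hD
  have hS := hG.1
  have hC := hG.2.1
  -- the set is {d, e}
  obtain ⟨e, hed, hset⟩ : ∃ e, e ≠ d ∧ {y : G | y ∈ D ∧ Commute d y} = {d, e} := by
    obtain ⟨x, y, hxy, hset⟩ := Set.ncard_eq_two.mp hm
    have hdmem : d ∈ ({x, y} : Set G) := by
      rw [← hset]; exact ⟨hd, Commute.refl d⟩
    rcases hdmem with h | h
    · exact ⟨y, fun h' => hxy (h.symm ▸ h'.symm), by rw [hset, h]⟩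
    · have h' : d = y := h
      exact ⟨x, fun h'' => hxy (h''.trans h'), by rw [hset, h', Set.pair_comm]⟩
  have heset : e ∈ {y : G | y ∈ D ∧ Commute d y} := by
    rw [hset]; exact Set.mem_insert_of_mem _ rfl
  have heD : e ∈ D := heset.1
  have hde : Commute d e := heset.2
  have heV : ∀ x ∈ D, Commute e x ↔ Commute d x := by
    have : e ∈ {v : G | v ∈ D ∧ ∀ e ∈ D, Commute v e ↔ Commute d e} := by
      rw [← hV]; exact heset
    exact this.2
  -- every member of D has at most one other commuting partner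
  have hP : ∀ a ∈ D, ∃ s : G, ∀ y ∈ D, Commute a y → y = a ∨ y = s := by
    intro a ha
    obtain ⟨g, rfl⟩ := tt_class_conj hD hd ha
    refine ⟨g * e * g⁻¹, ?_⟩
    intro y hy hc
    have h1 : Commute d (g⁻¹ * y * g) := (tt_commute_conj_iff g d y).mp hc
    have h2 : g⁻¹ * y * g ∈ ({d, e} : Set G) := by
      rw [← hset]; exact ⟨tt_conj_mem' hC g hy, h1⟩
    rcases h2 with h | h
    · left; rw [← h]; group
    · right
      have h' : g⁻¹ * y * g = e := h
      rw [← h']; group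
  -- a noncommuting partner
  obtain ⟨b, hb, hbd⟩ := tt_exists_not_commute hD hD2 hd
  have hbe : ¬ Commute b e := fun h => hbd ((heV b hb).mp h.symm).symm
  obtain ⟨φ, hinj, h01, h12, h23⟩ := Cfsg.Agent.S5344.result hS hd hb heD (fun h => hed h.symm)
    hde (fun h => hbd h.symm) hbe
  -- all transpositions land in D
  have hswap : ∀ i j : Fin 4, i ≠ j → φ (Equiv.swap i j) ∈ D := by
    intro i j hij
    have h1 : IsConj (Equiv.swap (0 : Fin 4) 1) (Equiv.swap i j) :=
      Equiv.Perm.isConj_swap (by decide) hij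
    obtain ⟨c, hc⟩ := isConj_iff.mp h1
    rw [← hc, map_mul, map_mul, map_inv, h01]
    exact hC _ d hd
  have hL1 : ∀ σ σ' : Equiv.Perm (Fin 4), φ σ ∈ D → φ σ' ∈ D → σ ≠ σ' → σ * σ' = σ' * σ →
      ∀ c ∈ D, c ∉ Set.range φ → ¬ Commute (φ σ) c := by
    intro σ σ' hσ hσ' hne hcomm c hc hcr hcc
    obtain ⟨s, hs⟩ := hP (φ σ) hσ
    have h1 : Commute (φ σ) (φ σ') := by
      have h : Commute σ σ' := hcomm
      exact h.map φ
    have h2 : s = φ σ' := by
      rcases hs (φ σ') hσ' h1 with h | h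
      · exact absurd (hinj h).symm hne
      · exact h.symm
    rcases hs c hc hcc with h | h
    · exact hcr ⟨σ, h.symm⟩
    · exact hcr ⟨σ', by rw [h, h2]⟩
  have hsub : D ⊆ Set.range φ := by
    intro c hc
    by_contra hcr
    obtain ⟨s, hs⟩ := hP c hc
    have key : ∀ τ τ' : Equiv.Perm (Fin 4), φ τ ∈ D → φ τ' ∈ D → τ ≠ τ' → τ * τ' = τ' * τ →
        φ (τ * τ') * c * (φ (τ * τ'))⁻¹ = s ∧ s ≠ c := by
      intro τ τ' hτ hτ' hne hcomm
      have h1 : ¬ Commute (φ τ) c := hL1 τ τ' hτ hτ' hne hcomm c hc hcr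
      have h2 : ¬ Commute (φ τ') c := hL1 τ' τ hτ' hτ hne.symm hcomm.symm c hc hcr
      have h3 : Commute (φ τ) (φ τ') := by
        have h : Commute τ τ' := hcomm
        exact h.map φ
      have h4 := tt_klein_conj hS hτ hτ' hc (fun h => hne (hinj h)) h3 h1 (fun h => h2 h.symm)
      rw [← map_mul] at h4
      have h5 : φ (τ * τ') * c * (φ (τ * τ'))⁻¹ ∈ D := hC _ c hc
      rcases hs _ h5 h4.2 with h | h
      · exact absurd h h4.1
      · exact ⟨h, fun h' => h4.1 (h.trans h')⟩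
    have k1 := key (Equiv.swap 0 1) (Equiv.swap 2 3) (hswap 0 1 (by decide))
      (hswap 2 3 (by decide)) (by decide) (by decide)
    have k2 := key (Equiv.swap 1 2) (Equiv.swap 0 3) (hswap 1 2 (by decide))
      (hswap 0 3 (by decide)) (by decide) (by decide)
    have k3 := key (Equiv.swap 0 2) (Equiv.swap 1 3) (hswap 0 2 (by decide))
      (hswap 1 3 (by decide)) (by decide) (by decide)
    have e3 : φ (Equiv.swap 0 2 * Equiv.swap 1 3) =
        φ (Equiv.swap 0 1 * Equiv.swap 2 3) * φ (Equiv.swap 1 2 * Equiv.swap 0 3) := by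
      rw [← map_mul]
      congr 1
      decide
    have e1 : φ (Equiv.swap 0 1 * Equiv.swap 2 3) * φ (Equiv.swap 0 1 * Equiv.swap 2 3) = 1 := by
      rw [← map_mul]
      have : (Equiv.swap 0 1 * Equiv.swap 2 3 : Equiv.Perm (Fin 4)) *
          (Equiv.swap 0 1 * Equiv.swap 2 3) = 1 := by decide
      rw [this, map_one]
    apply k1.2
    calc s = φ (Equiv.swap 0 2 * Equiv.swap 1 3) * c * (φ (Equiv.swap 0 2 * Equiv.swap 1 3))⁻¹ :=
          k3.1.symm
      _ = φ (Equiv.swap 0 1 * Equiv.swap 2 3) *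
            (φ (Equiv.swap 1 2 * Equiv.swap 0 3) * c * (φ (Equiv.swap 1 2 * Equiv.swap 0 3))⁻¹) *
            (φ (Equiv.swap 0 1 * Equiv.swap 2 3))⁻¹ := by rw [e3]; group
      _ = φ (Equiv.swap 0 1 * Equiv.swap 2 3) * s * (φ (Equiv.swap 0 1 * Equiv.swap 2 3))⁻¹ := by
          rw [k2.1]
      _ = φ (Equiv.swap 0 1 * Equiv.swap 2 3) *
            (φ (Equiv.swap 0 1 * Equiv.swap 2 3) * c * (φ (Equiv.swap 0 1 * Equiv.swap 2 3))⁻¹) *
            (φ (Equiv.swap 0 1 * Equiv.swap 2 3))⁻¹ := by rw [k1.1]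
      _ = (φ (Equiv.swap 0 1 * Equiv.swap 2 3) * φ (Equiv.swap 0 1 * Equiv.swap 2 3)) * c *
            (φ (Equiv.swap 0 1 * Equiv.swap 2 3) * φ (Equiv.swap 0 1 * Equiv.swap 2 3))⁻¹ := by
          group
      _ = c := by rw [e1]; simp
  have hsurj : Function.Surjective φ := by
    intro g
    have hg : g ∈ Subgroup.closure D := by rw [hD.2.2]; trivial
    have hle : Subgroup.closure D ≤ φ.range := by
      rw [Subgroup.closure_le]
      intro x hx
      exact hsub hx
    exact hle hg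
  exact ⟨(MulEquiv.ofBijective φ ⟨hinj, hsurj⟩).symm⟩

end TT3

end Cfsg.Agent.Lib.Helper56
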