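import Mathlib
import Cfsg.Prelude.Def_GeometricClasses

/-! S5982 project (helper96), piece UF-MULT: `sim_mult`. -/

set_option autoImplicit false

universe u

namespace Cfsg.Agent.Lib.Helper56.Uf

open Polynomial Matrix
open scoped MatrixGroups

theorem sim_mult {F : Type*} [Field F] (q₀ n : ℕ) (hn : n ≠ 0)
    (f : (Fin n → F) → (Fin n → F) → F) (hf : Cfsg.Geo.IsUnitaryFormPow q₀ f)
    (M : Matrix (Fin n) (Fin n) F) (μ : F) (hμ : ∀ u v, f (M *ᵥ u) (M *ᵥ v) = μ * f u v) :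
    μ ^ q₀ = μ ∧ ∀ (k : ℕ) (z : F), M ^ k = z • (1 : Matrix (Fin n) (Fin n) F) →
      μ ^ k = z ^ (q₀ + 1) := by
  -- a pair with nonzero value
  obtain ⟨x, v, hxv⟩ : ∃ x v : Fin n → F, f x v ≠ 0 := by
    have hv : (fun _ : Fin n => (1 : F)) ≠ 0 := by
      intro h
      have := congrFun h ⟨0, Nat.pos_of_ne_zero hn⟩
      simp at this
    obtain ⟨x, hx⟩ := (hf.nondegenerate _ hv).1
    exact ⟨x, _, hx⟩
  refine ⟨?_, ?_⟩
  · have h1 : μ * f x v = μ ^ q₀ * f x v := by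
      calc μ * f x v = f (M *ᵥ x) (M *ᵥ v) := (hμ x v).symm
        _ = (f (M *ᵥ v) (M *ᵥ x)) ^ q₀ := hf.herm _ _
        _ = (μ * f v x) ^ q₀ := by rw [hμ]
        _ = μ ^ q₀ * (f v x) ^ q₀ := mul_pow _ _ _
        _ = μ ^ q₀ * f x v := by rw [← hf.herm x v]
    exact (mul_right_cancel₀ hxv h1).symm
  · intro k z hk
    have hpow : ∀ (j : ℕ) (u w : Fin n → F), f (M ^ j *ᵥ u) (M ^ j *ᵥ w) = μ ^ j * f u w := by
      intro j
      induction j with
      | zero => intro u w; simp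
      | succ j ih =>
        intro u w
        rw [pow_succ', ← Matrix.mulVec_mulVec, ← Matrix.mulVec_mulVec, hμ, ih, pow_succ']
        ring
    have h2 := hpow k x v
    rw [hk, Matrix.smul_mulVec, Matrix.smul_mulVec, Matrix.one_mulVec, Matrix.one_mulVec] at h2
    have h3 : f (z • x) (z • v) = z ^ (q₀ + 1) * f x v := by
      calc f (z • x) (z • v) = z * f x (z • v) := hf.smul_left _ _ _
        _ = z * (f (z • v) x) ^ q₀ := by rw [← hf.herm]
        _ = z * (z * f v x) ^ q₀ := by rw [hf.smul_left]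
        _ = z * (z ^ q₀ * (f v x) ^ q₀) := by rw [mul_pow]
        _ = z * (z ^ q₀ * f x v) := by rw [← hf.herm x v]
        _ = z ^ (q₀ + 1) * f x v := by ring
    rw [h3] at h2
    exact (mul_right_cancel₀ hxv h2).symm

end Cfsg.Agent.Lib.Helper56.Uf
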